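import Cfsg.Agent.LargeExtra.Structure

/-!
At most two components, and the simplicity criterion.
-/

set_option autoImplicit false

namespace Cfsg.Agent.LargeExtra

open Cfsg

variable {G : Type*} [Group G]

theorem relIndex_dvd_of_normal_right [Finite G] (S N : Subgroup G) [N.Normal] :
    S.relIndex N ∣ S.index := by
  refine dvd_trans ?_ (Subgroup.relIndex_dvd_index_of_le (le_sup_left : S ≤ S ⊔ N))
  have hpos : 0 < Nat.card ↥(S ⊓ N) := Nat.card_pos
  have e1 : Nat.card ↥(S ⊓ N) * S.relIndex N = Nat.card ↥N := by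
    rw [← Subgroup.inf_relIndex_right S N, ← Subgroup.relIndex_bot_left (S ⊓ N),
      Subgroup.relIndex_mul_relIndex _ _ _ bot_le inf_le_right, Subgroup.relIndex_bot_left]
  have e2 : Nat.card ↥(S ⊓ N) * N.relIndex S = Nat.card ↥S := by
    rw [← Subgroup.inf_relIndex_right N S, inf_comm N S, ← Subgroup.relIndex_bot_left (S ⊓ N),
      Subgroup.relIndex_mul_relIndex _ _ _ bot_le inf_le_left, Subgroup.relIndex_bot_left]
  have e3 : Nat.card ↥N * N.relIndex S = Nat.card ↥S * S.relIndex (S ⊔ N) := by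
    rw [← Subgroup.relIndex_sup_right (H := S) (K := N), ← Subgroup.relIndex_bot_left N, ← Subgroup.relIndex_bot_left S,
      Subgroup.relIndex_mul_relIndex _ _ _ bot_le le_sup_right,
      Subgroup.relIndex_mul_relIndex _ _ _ bot_le le_sup_left]
  rw [← e1, ← e2, mul_assoc, mul_assoc] at e3
  have e4 := Nat.eq_of_mul_eq_mul_left hpos e3
  rw [mul_comm] at e4
  have hb : 0 < N.relIndex S := Nat.pos_of_ne_zero fun h0 => by
    rw [h0, mul_zero] at e2
    exact Nat.card_pos.ne' e2.symm
  exact dvd_of_eq (Nat.eq_of_mul_eq_mul_left hb e4)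

variable [Finite G]

namespace LargeData

variable {Q : Subgroup G} {z : G} (D : LargeData Q z)
include D

/-- The centraliser of `z` contains a Sylow 2-subgroup of `G`. -/
theorem exists_sylow_le : ∃ S : Sylow 2 G, (S : Subgroup G) ≤ Subgroup.centralizer ({z} : Set G) := by
  haveI : Fact (Nat.Prime 2) := ⟨Nat.prime_two⟩
  obtain ⟨S, hS⟩ := D.ci.isPGroup.exists_le_sylow
  exact ⟨S, D.le_centralizer_of_two S.2 hS⟩

variable (hne : pCore 2 G = ⊥)
include hne

theorem odd_index {L : Subgroup G} (hL : IsComponent L) :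
    ¬ 2 ∣ ((Subgroup.centralizer ({z} : Set G)).subgroupOf L).index := by
  haveI : Fact (Nat.Prime 2) := ⟨Nat.prime_two⟩
  obtain ⟨S, hS⟩ := D.exists_sylow_le
  haveI := Components.layer_normal (G := G)
  have hLl := Components.component_le_layer hL
  haveI : (L.subgroupOf (layer G)).Normal := Components.component_normal_in_layer hL
  have h1 : (S : Subgroup G).relIndex L ∣ (S : Subgroup G).index := by
    have a := relIndex_dvd_of_normal_right ((S : Subgroup G).subgroupOf (layer G)) (L.subgroupOf (layer G))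
    rw [Subgroup.relIndex_subgroupOf hLl] at a
    exact a.trans (relIndex_dvd_of_normal_right (S : Subgroup G) (layer G))
  intro h2
  refine S.not_dvd_index ((dvd_trans h2 ?_).trans h1)
  exact Subgroup.index_dvd_of_le fun x hx => hS hx

theorem isPGroup_inf {L : Subgroup G} (hL : IsComponent L) {q : G} (hq : q ∈ Q) (hqL : cj q L ≠ L) :
    IsPGroup 2 ↥((Subgroup.centralizer ({z} : Set G)).subgroupOf L) := by
  intro x
  have hxz := Subgroup.mem_centralizer_singleton_iff.1 (Subgroup.mem_subgroupOf.1 x.2)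
  obtain ⟨a, ha, -, -⟩ := D.coord_z hne hL
  obtain ⟨c1, e1, -⟩ := D.moved_props hne hL hq hqL ha ((x : ↥L) : ↥L).2 hxz
  obtain ⟨k, hk⟩ := D.ci.isPGroup ⟨_, c1⟩
  refine ⟨k, Subtype.ext (Subtype.ext ?_)⟩
  have e := e1.pow (2 ^ k)
  rw [show (q * ((x : ↥L) : G) * q⁻¹ * ((x : ↥L) : G)⁻¹) ^ 2 ^ k = 1 from congrArg Subtype.val hk] at e
  have h := Coord.unique (D.component_center hne hL) e Coord.one
  rw [inv_pow, inv_eq_one] at h
  simpa using h

theorem exists_noncentral {L : Subgroup G} (hL : IsComponent L) {q : G} (hq : q ∈ Q) (hqL : cj q L ≠ L)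
    {a : G} (ha : Coord L z a) (ha2 : a * a = 1) : ∃ x ∈ L, x * z = z * x ∧ x ≠ 1 ∧ x ≠ a := by
  haveI : Fact (Nat.Prime 2) := ⟨Nat.prime_two⟩
  by_contra h
  push Not at h
  haveI := (D.component_simple hne hL).1
  have hna := (D.component_simple hne hL).2
  let R : Sylow 2 ↥L := (D.isPGroup_inf hne hL hq hqL).toSylow (D.odd_index hne hL)
  have hza : a * z = z * a := (Commute.symm (by
    have := ha.2 a ha.1
    calc z * a = a * (a⁻¹ * z * a) := by group
      _ = a * (a * (a⁻¹ * z)) := by rw [this]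
      _ = a * z := by group : Commute z a)).eq
  have haR : (⟨a, ha.1⟩ : ↥L) ∈ (R : Subgroup ↥L) := Subgroup.mem_centralizer_singleton_iff.2 hza
  have hle : (R : Subgroup ↥L) ≤ Subgroup.zpowers (⟨a, ha.1⟩ : ↥L) := fun x hx => by
    by_cases e : (x : G) = 1
    · rw [show x = 1 from Subtype.ext e]
      exact one_mem _
    · rw [show x = ⟨a, ha.1⟩ from Subtype.ext (h x x.2 (Subgroup.mem_centralizer_singleton_iff.1 hx) e)]
      exact Subgroup.mem_zpowers _
  have hc : IsCyclic ↥(R : Subgroup ↥L) :=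
    isCyclic_of_injective (Subgroup.inclusion hle) (Subgroup.inclusion_injective hle)
  obtain ⟨a', ha', ha1', -⟩ := D.coord_z hne hL
  obtain rfl := Coord.unique (D.component_center hne hL) ha ha'
  have heven : Even (Nat.card ↥L) := by
    refine even_iff_two_dvd.2 ?_
    have : orderOf (⟨a, ha.1⟩ : ↥L) = 2 := orderOf_eq_prime (Subtype.ext (by rw [pow_two]; exact ha2))
      (fun e => ha1' (congrArg Subtype.val e))
    exact this ▸ orderOf_dvd_natCard _
  obtain ⟨H, hH⟩ := Invol.exists_index_two_of_cyclic_sylow heven R hc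
  haveI := Subgroup.normal_of_index_eq_two hH
  rcases Subgroup.Normal.eq_bot_or_eq_top (H := H) inferInstance with rfl | rfl
  · rw [Subgroup.index_bot] at hH
    haveI : IsCyclic ↥L := isCyclic_of_prime_card (p := 2) hH
    exact hna IsCyclic.commutative
  · simp at hH

/-- There are at most two components. -/
theorem two_components {L : Subgroup G} (hL : IsComponent L) {q : G} (hq : q ∈ Q) (hqL : cj q L ≠ L)
    {K : Subgroup G} (hK : IsComponent K) : K = L ∨ K = cj q L := by
  by_contra hcon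
  push Not at hcon
  have hu : ∀ {M : Subgroup G}, IsComponent M → ∀ {m l k : G}, Coord M m l → Coord M m k → l = k :=
    fun hM _ _ _ h h' => Coord.unique (D.component_center hne hM) h h'
  obtain ⟨a, ha, -, ha2⟩ := D.coord_z hne hL
  obtain ⟨x, hx, hxz, hx1, hxa⟩ := D.exists_noncentral hne hL hq hqL ha ha2
  obtain ⟨hcQ, e1, e2⟩ := D.moved_props hne hL hq hqL ha hx hxz
  obtain ⟨r, hr, hrK⟩ := D.transitive hne hL hK
  have hL2 := Components.component_conj q hL
  have hx1' : x⁻¹ ≠ 1 := fun e => hx1 (inv_eq_one.1 e)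
  have hxa' : x⁻¹ ≠ a := fun e => hxa (by rw [← inv_inv x, e, inv_eq_of_mul_eq_one_right ha2])
  have hb : Coord (cj q L) z (q * a * q⁻¹) := by
    have := ha.conj q
    rwa [D.ci.comm q hq, mul_inv_cancel_right] at this
  have hy1 : q * x * q⁻¹ ≠ 1 := fun e => hx1 (conj_eq_one_iff.1 e)
  have hya : q * x * q⁻¹ ≠ q * a * q⁻¹ := fun e => hxa (mul_left_cancel (mul_right_cancel e))
  set c := q * x * q⁻¹ * x⁻¹ with hc
  -- a component of the pair outside the moved pair
  obtain ⟨i, hi, hi1, hi2, d, b, hd, hbz, hd1, hdb, hbb⟩ : ∃ i, IsComponent i ∧ cj r L ≠ i ∧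
      cj r (cj q L) ≠ i ∧ ∃ d b, Coord i c d ∧ Coord i z b ∧ d ≠ 1 ∧ d ≠ b ∧ b * b = 1 := by
    by_cases e : cj r (cj q L) = L
    · refine ⟨cj q L, hL2, hrK ▸ hcon.2, fun h => hqL (h.symm.trans e), q * x * q⁻¹, q * a * q⁻¹,
        e2, hb, hy1, hya, ?_⟩
      calc q * a * q⁻¹ * (q * a * q⁻¹) = q * (a * a) * q⁻¹ := by group
        _ = 1 := by rw [ha2, mul_one, mul_inv_cancel]
    · exact ⟨L, hL, hrK ▸ hcon.1, e, x⁻¹, a, e1, ha, hx1', hxa', ha2⟩
  have h1 : Coord i (r * (q * x * q⁻¹) * r⁻¹) 1 := Coord.of_commute fun y hy =>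
    commute_of_components (Components.component_conj r hL2) hi hi2 (mem_cj (mem_cj hx)) hy
  have h2 : Coord i (r * x⁻¹ * r⁻¹) 1 := Coord.of_commute fun y hy =>
    commute_of_components (Components.component_conj r hL) hi hi1 (mem_cj (inv_mem hx)) hy
  have h3 : Coord i (r * c * r⁻¹ * c⁻¹) d⁻¹ := by
    have := (h1.mul h2).mul hd.inv
    rw [one_mul, one_mul, show r * (q * x * q⁻¹) * r⁻¹ * (r * x⁻¹ * r⁻¹) = r * c * r⁻¹ by rw [hc]; group] at this
    exact this
  rcases D.ci.comm_mem hr hcQ with e | e <;> rw [e] at h3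
  · exact hd1 (inv_eq_one.1 (hu hi h3 Coord.one))
  · exact hdb (by rw [← inv_inv d, hu hi h3 hbz, inv_eq_of_mul_eq_one_right hbb])

/-- One component: the normal closure is simple. -/
theorem simple_of_fixed {L : Subgroup G} (hL : IsComponent L) (h : ∀ q ∈ Q, cj q L = L) :
    IsSimpleGroup ↥(Subgroup.normalClosure ({z} : Set G)) := by
  have e : Subgroup.normalClosure ({z} : Set G) = L := by
    rw [D.closure_eq_layer hne]
    refine le_antisymm (Components.layer_le_iff.2 fun K hK => ?_) (Components.component_le_layer hL)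
    obtain ⟨q, hq, rfl⟩ := D.transitive hne hL hK
    rw [h q hq]
  rw [e]
  exact (D.component_simple hne hL).1

/-- If the normal closure contains `Q` it is simple. -/
theorem simple_of_le (hQM : Q ≤ Subgroup.normalClosure ({z} : Set G)) :
    IsSimpleGroup ↥(Subgroup.normalClosure ({z} : Set G)) := by
  obtain ⟨L, hL⟩ := D.exists_component hne
  refine D.simple_of_fixed hne hL fun q hq => ?_
  rw [D.closure_eq_layer hne] at hQM
  exact Subgroup.mem_normalizer_iff_map_conj_eq.1 (Components.layer_le_normalizer_component hL (hQM hq))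

end LargeData

/-- If the normal closure of `z` contains the centraliser of `z`, and the group has a large extraspecial
subgroup, then it is simple. -/
theorem isSimpleGroup_of_centralizer_le {Q : Subgroup G} {z : G} (D : LargeData Q z)
    (h : Subgroup.centralizer ({z} : Set G) ≤ Subgroup.normalClosure ({z} : Set G)) : IsSimpleGroup G := by
  haveI : Fact (Nat.Prime 2) := ⟨Nat.prime_two⟩
  set M := Subgroup.normalClosure ({z} : Set G) with hM
  have hQM : Q ≤ M := D.ci.le_centralizer.trans h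
  have hne : pCore 2 G = ⊥ := by
    by_contra hne
    refine PGroup.extraspecial_not_comm D.ci.extra ⟨⟨fun a b => Subtype.ext ?_⟩⟩
    have := congrArg Subtype.val ((D.pCore_case hne).1.is_comm.comm ⟨a, hQM a.2⟩ ⟨b, hQM b.2⟩)
    exact this
  haveI hs := D.simple_of_le hne hQM
  suffices htop : M = ⊤ by
    rw [← hM, htop] at hs
    haveI : Nontrivial G := ⟨⟨z, 1, D.ci.ne_one⟩⟩
    exact IsSimpleGroup.isSimpleGroup_of_surjective (Subgroup.topEquiv (G := G)).toMonoidHom
      (MulEquiv.surjective _)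
  obtain ⟨S, hQS⟩ := D.ci.isPGroup.exists_le_sylow
  have hS := D.le_centralizer_of_two S.2 hQS
  haveI : M.Normal := Subgroup.normalClosure_normal
  refine eq_top_iff.2 fun g _ => ?_
  have hSM : (S : Subgroup G) ≤ M := hS.trans h
  have htop := Sylow.normalizer_sup_eq_top' S hSM
  have hg : g ∈ Subgroup.normalizer ((S : Subgroup G) : Set G) ⊔ M := htop ▸ Subgroup.mem_top g
  refine (sup_le ?_ le_rfl : Subgroup.normalizer ((S : Subgroup G) : Set G) ⊔ M ≤ M) hg
  intro n hn
  refine h (Subgroup.mem_centralizer_singleton_iff.2 ?_)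
  have hnz : n * z * n⁻¹ ∈ (S : Subgroup G) := (Subgroup.mem_normalizer_iff.1 hn z).1 (hQS D.ci.mem)
  have hc : n * z * n⁻¹ ∈ Subgroup.centralizer (Q : Set G) := fun q hq => by
    have hq' : n⁻¹ * q * n ∈ (S : Subgroup G) := by
      simpa using (Subgroup.mem_normalizer_iff.1 (inv_mem hn) q).1 (hQS hq)
    calc q * (n * z * n⁻¹) = n * (n⁻¹ * q * n * z) * n⁻¹ := by group
      _ = n * z * n⁻¹ * q := by rw [Subgroup.mem_centralizer_singleton_iff.1 (hS hq')]; group
  rw [D.cent] at hc
  rcases D.ci.mem_zpowers_iff.1 hc with e | e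
  · exact absurd (conj_eq_one_iff.1 e) D.ci.ne_one
  · exact mul_inv_eq_iff_eq_mul.1 e

end Cfsg.Agent.LargeExtra
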