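import Cfsg.Agent.PGroup.Frattini
import Cfsg.Agent.Invol.IndexTwo
import Cfsg.Agent.SmallGroups.Basic
import Cfsg.Agent.Transfer.Fusion
import Cfsg.Agent.TwoGroups.Recognition

/-!
A simple group with an involution centraliser that is a Sylow 2-subgroup of Frattini subgroup `⟨z⟩`
has dihedral Sylow 2-subgroups of order 8.
-/

set_option autoImplicit false

namespace Cfsg.Agent.LargeExtra.Dihedral

open Cfsg Subgroup
open scoped commutatorElement Pointwise

variable {L : Type*} [Group L] [Finite L]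

/-- The hypotheses used below. -/
structure Setup (R : Sylow 2 L) (z : L) : Prop where
  cent : (R : Subgroup L) = centralizer ({z} : Set L)
  sq : z * z = 1
  ne_one : z ≠ 1
  sq_mem : ∀ x : L, x * z = z * x → x * x = 1 ∨ x * x = z
  comm_mem : ∀ x y : L, x * z = z * x → y * z = z * y → x * y * x⁻¹ * y⁻¹ = 1 ∨ x * y * x⁻¹ * y⁻¹ = z
  norm : ∀ n ∈ normalizer ((R : Subgroup L) : Set L), n * z = z * n
  simple : IsSimpleGroup L
  nc : ¬ IsMulCommutative L

theorem setup {L : Type*} [Group L] [Finite L] [hs : IsSimpleGroup L] (hL : ¬ IsMulCommutative L) (z : L)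
    (hz : orderOf z = 2) (R : Sylow 2 L) (hR : (R : Subgroup L) = centralizer ({z} : Set L))
    (hΦ : (frattini ↥(R : Subgroup L)).map (R : Subgroup L).subtype = zpowers z) : Setup R z := by
  haveI : Fact (Nat.Prime 2) := ⟨Nat.prime_two⟩
  have hz1 : z ≠ 1 := fun e => by simp [e] at hz
  have hz2 : z * z = 1 := by rw [← pow_two, ← hz, pow_orderOf_eq_one]
  have two : ∀ {x : L}, x ∈ zpowers z → x = 1 ∨ x = z := by
    rintro x ⟨k, rfl⟩
    rcases Int.even_or_odd' k with ⟨m, rfl | rfl⟩
    · left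
      simp [zpow_mul, pow_two, hz2]
    · right
      simp [zpow_add, zpow_mul, pow_two, hz2]
  have hmem : ∀ {x : L}, x * z = z * x → x ∈ (R : Subgroup L) := fun h => by
    rw [hR]; exact mem_centralizer_singleton_iff.2 h
  have hsq : ∀ x : L, x * z = z * x → x * x = 1 ∨ x * x = z := fun x hx => by
    refine two (hΦ ▸ ⟨⟨x, hmem hx⟩ ^ 2, PGroup.pow_mem_frattini R.isPGroup' _, ?_⟩)
    simp [pow_two]
  have hcm : ∀ x y : L, x * z = z * x → y * z = z * y →
      x * y * x⁻¹ * y⁻¹ = 1 ∨ x * y * x⁻¹ * y⁻¹ = z := fun x y hx hy => by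
    refine two (hΦ ▸ ⟨⟨x, hmem hx⟩ * ⟨y, hmem hy⟩ * ⟨x, hmem hx⟩⁻¹ * ⟨y, hmem hy⟩⁻¹,
      PGroup.commutator_le_frattini R.isPGroup' (commutator_mem_commutator (mem_top _) (mem_top _)), ?_⟩)
    simp
  refine ⟨hR, hz2, hz1, hsq, hcm, fun n hn => ?_, hs, hL⟩
  have hgen : (∃ x ∈ (R : Subgroup L), x * x = z) ∨
      ∃ x ∈ (R : Subgroup L), ∃ y ∈ (R : Subgroup L), x * y * x⁻¹ * y⁻¹ = z := by
    by_contra hcon
    push Not at hcon
    obtain ⟨h1, h2⟩ := hcon
    have hcR : ∀ x : ↥(R : Subgroup L), (x : L) * z = z * x := fun x =>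
      mem_centralizer_singleton_iff.1 (hR ▸ x.2)
    have hbot : frattini ↥(R : Subgroup L) = ⊥ := by
      refine le_bot_iff.1 (PGroup.frattini_le_of_commutator_le_of_pow_mem Nat.prime_two ?_ fun x => ?_)
      · rw [commutator_eq_closure, closure_le]
        rintro _ ⟨x, y, rfl⟩
        refine mem_bot.2 (Subtype.ext ?_)
        exact ((hcm x y (hcR x) (hcR y)).resolve_right (h2 x x.2 y y.2))
      · refine mem_bot.2 (Subtype.ext ?_)
        show ((x ^ 2 : ↥(R : Subgroup L)) : L) = 1
        rw [pow_two]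
        exact (hsq x (hcR x)).resolve_right (h1 x x.2)
    rw [hbot, Subgroup.map_bot] at hΦ
    exact hz1 (mem_bot.1 (hΦ.symm ▸ mem_zpowers z))
  have hc : ∀ {x : L}, x ∈ (R : Subgroup L) → (n * x * n⁻¹) * z = z * (n * x * n⁻¹) := fun hx =>
    mem_centralizer_singleton_iff.1 (hR ▸ (mem_normalizer_iff.1 hn _).1 hx)
  have key : n * z * n⁻¹ = 1 ∨ n * z * n⁻¹ = z := by
    rcases hgen with ⟨x, hx, e⟩ | ⟨x, hx, y, hy, e⟩
    · have h := hsq _ (hc hx)
      rwa [show n * x * n⁻¹ * (n * x * n⁻¹) = n * (x * x) * n⁻¹ by group, e] at h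
    · have h := hcm _ _ (hc hx) (hc hy)
      rwa [show n * x * n⁻¹ * (n * y * n⁻¹) * (n * x * n⁻¹)⁻¹ * (n * y * n⁻¹)⁻¹ =
        n * (x * y * x⁻¹ * y⁻¹) * n⁻¹ by group, e] at h
  exact mul_inv_eq_iff_eq_mul.1 (key.resolve_left fun e => hz1 (conj_eq_one_iff.1 e))

namespace Setup

variable {R : Sylow 2 L} {z : L} (S : Setup R z)
include S

theorem mem_iff {x : L} : x ∈ (R : Subgroup L) ↔ x * z = z * x := by
  rw [S.cent]; exact mem_centralizer_singleton_iff

theorem normalizer_le {n : L} (hn : n ∈ normalizer ((R : Subgroup L) : Set L)) : n ∈ (R : Subgroup L) :=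
  S.mem_iff.2 (S.norm n hn)

theorem two_dvd : 2 ∣ Nat.card L := by
  have : orderOf z = 2 := orderOf_eq_prime (by rw [pow_two, S.sq]) S.ne_one
  exact this ▸ orderOf_dvd_natCard z

theorem not_comm : ∃ x ∈ (R : Subgroup L), ∃ y ∈ (R : Subgroup L), x * y ≠ y * x := by
  haveI : Fact (Nat.Prime 2) := ⟨Nat.prime_two⟩
  haveI := S.simple
  by_contra h
  push Not at h
  exact SmallGroups.not_normalizer_le_centralizer S.nc S.two_dvd R fun n hn m hm =>
    h m hm n (S.normalizer_le hn)

/-- Facts on the centraliser of a conjugate of `z`. -/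
theorem conj_facts {c : L} (hc : IsConj z c) : c * c = 1 ∧
    (∀ x : L, x * c = c * x → x * x = 1 ∨ x * x = c) ∧
    (∀ x y : L, x * c = c * x → y * c = c * y → x * y * x⁻¹ * y⁻¹ = 1 ∨ x * y * x⁻¹ * y⁻¹ = c) ∧
    ((∀ x : L, x * c = c * x → x * z = z * x) → c = z) := by
  obtain ⟨g, rfl⟩ := isConj_iff.1 hc
  have hd : ∀ {x : L}, x * (g * z * g⁻¹) = g * z * g⁻¹ * x → (g⁻¹ * x * g) * z = z * (g⁻¹ * x * g) := by
    intro x hx
    calc g⁻¹ * x * g * z = g⁻¹ * (x * (g * z * g⁻¹)) * g := by group
      _ = z * (g⁻¹ * x * g) := by rw [hx]; group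
  have tr : ∀ {x : L}, g⁻¹ * x * g = 1 ∨ g⁻¹ * x * g = z → x = 1 ∨ x = g * z * g⁻¹ := by
    intro x h
    rcases h with e | e
    · left
      calc x = g * (g⁻¹ * x * g) * g⁻¹ := by group
        _ = 1 := by rw [e]; group
    · right
      rw [← e]; group
  refine ⟨?_, fun x hx => tr ?_, fun x y hx hy => tr ?_, fun h => ?_⟩
  · rw [show g * z * g⁻¹ * (g * z * g⁻¹) = g * (z * z) * g⁻¹ by group, S.sq, mul_one, mul_inv_cancel]
  · rw [show g⁻¹ * (x * x) * g = g⁻¹ * x * g * (g⁻¹ * x * g) by group]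
    exact S.sq_mem _ (hd hx)
  · rw [show g⁻¹ * (x * y * x⁻¹ * y⁻¹) * g = g⁻¹ * x * g * (g⁻¹ * y * g) * (g⁻¹ * x * g)⁻¹ * (g⁻¹ * y * g)⁻¹ by group]
    exact S.comm_mem _ _ (hd hx) (hd hy)
  · have hmap : ((R : Subgroup L).map (MulAut.conj g).toMonoidHom) = (R : Subgroup L) := by
      refine eq_of_le_of_card_ge ?_ (Nat.card_congr
        ((R : Subgroup L).equivMapOfInjective _ (MulAut.conj g).injective).toEquiv).le
      rintro _ ⟨x, hx, rfl⟩
      refine S.mem_iff.2 (h _ ?_)
      show g * x * g⁻¹ * (g * z * g⁻¹) = g * z * g⁻¹ * (g * x * g⁻¹)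
      calc g * x * g⁻¹ * (g * z * g⁻¹) = g * (x * z) * g⁻¹ := by group
        _ = _ := by rw [S.mem_iff.1 hx]; group
    rw [S.norm g (mem_normalizer_iff_map_conj_eq.2 hmap), mul_inv_cancel_right]

/-- Elements centralising `z` and a conjugate `c ≠ z` commute and square to one. -/
theorem elementary {c : L} (hc : IsConj z c) (hne : c ≠ z) {x y : L} (hxz : x * z = z * x)
    (hxc : x * c = c * x) (hyz : y * z = z * y) (hyc : y * c = c * y) : x * x = 1 ∧ x * y = y * x := by
  obtain ⟨-, h1, h2, -⟩ := S.conj_facts hc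
  constructor
  · rcases S.sq_mem x hxz with e | e
    · exact e
    · exact (h1 x hxc).resolve_right fun e' => hne (e'.symm.trans e)
  · rcases S.comm_mem x y hxz hyz with e | e
    · exact mul_inv_eq_iff_eq_mul.1 (mul_inv_eq_one.1 e)
    · rcases h2 x y hxc hyc with e' | e'
      · exact mul_inv_eq_iff_eq_mul.1 (mul_inv_eq_one.1 e')
      · exact absurd (e'.symm.trans e) hne

theorem exists_swap {c : L} (hc : IsConj z c) (hne : c ≠ z) (hcz : c * z = z * c) :
    ∃ y : L, y * z = z * y ∧ y * c * y⁻¹ = c * z := by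
  by_contra h
  push Not at h
  obtain ⟨hc2, -, -, -⟩ := S.conj_facts hc
  have hall : ∀ x : L, x * z = z * x → x * c = c * x := by
    intro x hx
    rcases S.comm_mem x c hx hcz with e | e
    · exact mul_inv_eq_iff_eq_mul.1 (mul_inv_eq_one.1 e)
    · exact absurd (by rw [mul_inv_eq_iff_eq_mul.1 e, hcz]) (h x hx)
  obtain ⟨x, hx, y, hy, hxy⟩ := S.not_comm
  rw [S.mem_iff] at hx hy
  exact hxy (S.elementary hc hne hx (hall x hx) hy (hall y hy)).2

theorem exists_swap' {c : L} (hc : IsConj z c) (hne : c ≠ z) (hcz : c * z = z * c) :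
    ∃ y : L, y * c = c * y ∧ y * z * y⁻¹ = z * c := by
  by_contra h
  push Not at h
  obtain ⟨-, -, h2, h3⟩ := S.conj_facts hc
  refine hne (h3 fun x hx => ?_)
  rcases h2 x z hx hcz.symm with e | e
  · exact mul_inv_eq_iff_eq_mul.1 (mul_inv_eq_one.1 e)
  · exact absurd (by rw [mul_inv_eq_iff_eq_mul.1 e, hcz]) (h x hx)

/-- An element of `C(c)` fixing a third commuting conjugate `d` fixes `z`. -/
theorem moves {c d y : L} (hc : IsConj z c) (hd : IsConj z d) (hdc : d ≠ c) (hcz : c * z = z * c)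
    (hdz : d * z = z * d) (hcd : c * d = d * c) (hyc : y * c = c * y) (hyd : y * d = d * y) :
    y * z = z * y := by
  obtain ⟨-, -, h2, -⟩ := S.conj_facts hc
  obtain ⟨-, -, g2, -⟩ := S.conj_facts hd
  rcases h2 y z hyc hcz.symm with e | e
  · exact mul_inv_eq_iff_eq_mul.1 (mul_inv_eq_one.1 e)
  · rcases g2 y z hyd hdz.symm with e' | e'
    · exact mul_inv_eq_iff_eq_mul.1 (mul_inv_eq_one.1 e')
    · exact absurd (e'.symm.trans e) hdc

/-- Commuting conjugates of `z` centralising it differ by `z`. -/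
theorem at_most_three {c d : L} (hc : IsConj z c) (hne : c ≠ z) (hd : IsConj z d) (hdne : d ≠ z)
    (hcz : c * z = z * c) (hdz : d * z = z * d) (hcd : c * d = d * c) : d = c ∨ d = c * z := by
  by_contra h
  push Not at h
  obtain ⟨hdc, hdcz⟩ := h
  obtain ⟨y, hyc, hyz⟩ := S.exists_swap' hc hne hcz
  obtain ⟨hd2, -, -, -⟩ := S.conj_facts hd
  obtain ⟨hc2, -, h2, -⟩ := S.conj_facts hc
  obtain ⟨p, hpz, hp⟩ := S.exists_swap hd hdne hdz
  have hwd : IsConj z (d * z) := hd.trans (isConj_iff.2 ⟨p, hp⟩)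
  have hyd : y * d * y⁻¹ = d * c := by
    rcases h2 y d hyc hcd.symm with e | e
    · exfalso
      have := S.moves hc hd hdc hcz hdz hcd hyc (mul_inv_eq_iff_eq_mul.1 (mul_inv_eq_one.1 e))
      rw [this, mul_inv_cancel_right] at hyz
      rw [eq_comm, mul_eq_left] at hyz
      exact S.ne_one (isConj_one_left.1 (hyz ▸ hc))
    · rw [mul_inv_eq_iff_eq_mul.1 e, hcd]
  have hyw : y * (d * z) = d * z * y := by
    refine mul_inv_eq_iff_eq_mul.1 ?_
    calc y * (d * z) * y⁻¹ = (y * d * y⁻¹) * (y * z * y⁻¹) := by group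
      _ = d * (c * z) * c := by rw [hyd, hyz]; group
      _ = d * z * (c * c) := by rw [hcz]; group
      _ = d * z := by rw [hc2, mul_one]
  have hwz : d * z * z = z * (d * z) := by rw [← mul_assoc, ← hdz]
  have hcw : c * (d * z) = d * z * c := by rw [← mul_assoc, hcd, mul_assoc, hcz, ← mul_assoc]
  have hwc : d * z ≠ c := fun e => hdcz (by rw [← e, mul_assoc, S.sq, mul_one])
  have := S.moves hc hwd hwc hcz hwz hcw hyc hyw
  rw [this, mul_inv_cancel_right, eq_comm, mul_eq_left] at hyz
  rw [hyz] at hc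
  exact S.ne_one (isConj_one_left.1 hc)

/-- The conjugates of `z` in `R`. -/
theorem exists_list : ∃ s t : L, IsConj z s ∧ s ≠ z ∧ s * z = z * s ∧ IsConj z t ∧ t ≠ z ∧ t * z = z * t ∧
    ∀ u : L, IsConj z u → u ≠ z → u * z = z * u → u = s ∨ u = s * z ∨ u = t ∨ u = t * z := by
  haveI : Fact (Nat.Prime 2) := ⟨Nat.prime_two⟩
  haveI := S.simple
  obtain ⟨s, hs, hsne, hsz⟩ : ∃ s : L, IsConj z s ∧ s ≠ z ∧ s * z = z * s := by
    by_contra h
    push Not at h
    have two : ∀ {x : L}, x ∈ zpowers z → x = 1 ∨ x = z := by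
      rintro x ⟨k, rfl⟩
      rcases Int.even_or_odd' k with ⟨m, rfl | rfl⟩
      · left
        simp [zpow_mul, pow_two, S.sq]
      · right
        simp [zpow_add, zpow_mul, pow_two, S.sq]
    have hW : IsWeaklyClosed (zpowers z) (R : Subgroup L) := by
      refine ⟨zpowers_le.2 (S.mem_iff.2 rfl), fun g hg => ?_⟩
      have e : g * z * g⁻¹ = z := by
        by_contra hne
        exact h _ (isConj_iff.2 ⟨g, rfl⟩) hne (S.mem_iff.1 (hg ⟨z, mem_zpowers z, rfl⟩))
      rw [MonoidHom.map_zpowers]
      exact congrArg zpowers e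
    have hctrl := Transfer.controlsFusion_normalizer_of_weaklyClosed R (zpowers z)
      (zpowers_le.2 fun x hx => S.mem_iff.1 hx) hW
    have hNR : normalizer ((zpowers z : Subgroup L) : Set L) = (R : Subgroup L) := by
      refine le_antisymm (fun n hn => S.mem_iff.2 ?_) fun n hn => ?_
      · rcases two ((mem_normalizer_iff.1 hn z).1 (mem_zpowers z)) with e | e
        · exact absurd (conj_eq_one_iff.1 e) S.ne_one
        · exact mul_inv_eq_iff_eq_mul.1 e
      · refine mem_normalizer_iff_map_conj_eq.2 ?_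
        rw [MonoidHom.map_zpowers]
        refine congrArg zpowers ?_
        show n * z * n⁻¹ = z
        rw [S.mem_iff.1 hn, mul_inv_cancel_right]
    rw [hNR] at hctrl
    have he := hctrl.commutator_inf_sylow_eq R le_rfl
    have hperf : commutator L = ⊤ := by
      rcases (inferInstance : (commutator L).Normal).eq_bot_or_eq_top with e | e
      · exact absurd ⟨⟨fun a b => mem_center_iff.1
          ((commutator_eq_bot_iff_center_eq_top (G := L)).1 e ▸ mem_top b) a⟩⟩ S.nc
      · exact e
    rw [hperf, top_inf_eq] at he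
    have hle : (R : Subgroup L) ≤ zpowers z := by
      refine (he.le.trans inf_le_left).trans ((commutator_le).2 fun x hx y hy => ?_)
      rcases S.comm_mem x y (S.mem_iff.1 hx) (S.mem_iff.1 hy) with e | e
      · exact (show ⁅x, y⁆ = 1 from e) ▸ one_mem _
      · exact (show ⁅x, y⁆ = z from e) ▸ mem_zpowers z
    obtain ⟨x, hx, y, hy, hxy⟩ := S.not_comm
    apply hxy
    rcases two (hle hx) with rfl | rfl
    · rw [one_mul, mul_one]
    · exact (S.mem_iff.1 hy).symm
  by_cases hex : ∃ t : L, IsConj z t ∧ t ≠ z ∧ t * z = z * t ∧ t * s ≠ s * t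
  · obtain ⟨t, ht, htne, htz, hts⟩ := hex
    refine ⟨s, t, hs, hsne, hsz, ht, htne, htz, fun u hu hune huz => ?_⟩
    by_cases hus : u * s = s * u
    · rcases S.at_most_three hs hsne hu hune hsz huz hus.symm with e | e
      · exact Or.inl e
      · exact Or.inr (Or.inl e)
    by_cases hut : u * t = t * u
    · rcases S.at_most_three ht htne hu hune htz huz hut.symm with e | e
      · exact Or.inr (Or.inr (Or.inl e))
      · exact Or.inr (Or.inr (Or.inr e))
    exfalso
    have mv : ∀ {a : L}, a * z = z * a → a * s ≠ s * a → a * s = s * z * a := by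
      intro a ha hne
      rcases S.comm_mem a s ha hsz with e | e
      · exact absurd (mul_inv_eq_iff_eq_mul.1 (mul_inv_eq_one.1 e)) hne
      · rw [hsz]; exact mul_inv_eq_iff_eq_mul.1 (mul_inv_eq_iff_eq_mul.1 e)
    have e1 := mv htz hts
    have e2 := mv huz hus
    have hps : t * u * s = s * (t * u) := by
      calc t * u * s = t * (s * z) * u := by rw [mul_assoc t u s, e2]; group
        _ = s * z * (t * z) * u := by rw [← mul_assoc t s z, e1]; group
        _ = s * (z * z) * (t * u) := by rw [htz]; group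
        _ = s * (t * u) := by rw [S.sq, mul_one]
    have hpz : t * u * z = z * (t * u) := ((show Commute t z from htz).mul_left (huz : Commute u z)).eq
    obtain ⟨hp2, -⟩ := S.elementary hs hsne hpz hps hpz hps
    obtain ⟨hu2, -⟩ := S.conj_facts hu
    obtain ⟨ht2, -⟩ := S.conj_facts ht
    apply hut
    calc u * t = (t * t) * (u * t) * (u * u) := by rw [ht2, hu2, one_mul, mul_one]
      _ = t * (t * u * (t * u)) * u := by group
      _ = t * u := by rw [hp2, mul_one]
  · push Not at hex
    refine ⟨s, s, hs, hsne, hsz, hs, hsne, hsz, fun u hu hune huz => ?_⟩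
    rcases S.at_most_three hs hsne hu hune hsz huz (hex u hu hune huz).symm with e | e
    · exact Or.inl e
    · exact Or.inr (Or.inl e)

/-- A Sylow subgroup of the centraliser of a conjugate `g⁻¹ f g` of a central element of `R`
containing the part of `R` in it. -/
theorem exists_sylow_conj {f : L} (hfR : ∀ x : L, x * z = z * x → f * x = x * f) (g : L) :
    ∃ h : L, h * f * h⁻¹ = g⁻¹ * f * g ∧ ∀ x : L, x * (g⁻¹ * f * g) = g⁻¹ * f * g * x → x * z = z * x →
      (h⁻¹ * x * h) * z = z * (h⁻¹ * x * h) := by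
  haveI : Fact (Nat.Prime 2) := ⟨Nat.prime_two⟩
  obtain ⟨u, hu⟩ : ∃ u, u = g⁻¹ * f * g := ⟨_, rfl⟩
  rw [← hu]
  have hTC : (R : Subgroup L).map (MulAut.conj g⁻¹).toMonoidHom ≤ centralizer ({u} : Set L) := by
    rintro _ ⟨x, hx, rfl⟩
    rw [mem_centralizer_singleton_iff]
    show g⁻¹ * x * g⁻¹⁻¹ * u = u * (g⁻¹ * x * g⁻¹⁻¹)
    calc g⁻¹ * x * g⁻¹⁻¹ * u = g⁻¹ * (x * f) * g := by rw [hu]; group
      _ = u * (g⁻¹ * x * g⁻¹⁻¹) := by rw [← hfR x (S.mem_iff.1 hx), hu]; group
  have hidx : ((R : Subgroup L).map (MulAut.conj g⁻¹).toMonoidHom).index = (R : Subgroup L).index :=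
    Subgroup.index_map_equiv (R : Subgroup L) (MulAut.conj g⁻¹)
  generalize hT : (R : Subgroup L).map (MulAut.conj g⁻¹).toMonoidHom = T at hTC hidx
  have hTp : IsPGroup 2 ↥(T.subgroupOf (centralizer ({u} : Set L))) := by
    rw [← hT]; exact (R.isPGroup'.map _).comap_subtype
  have hTi : ¬ 2 ∣ (T.subgroupOf (centralizer ({u} : Set L))).index := fun h2 =>
    R.not_dvd_index (hidx ▸ dvd_trans h2 (relIndex_dvd_index_of_le hTC))
  obtain ⟨P, hP⟩ := (R.isPGroup'.comap_subtype (K := centralizer ({u} : Set L))).exists_le_sylow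
  obtain ⟨k, hk⟩ := MulAction.exists_smul_eq ↥(centralizer ({u} : Set L)) (hTp.toSylow hTi) P
  refine ⟨(k : L) * g⁻¹, ?_, fun x hxu hxz => ?_⟩
  · have := mem_centralizer_singleton_iff.1 k.2
    calc (k : L) * g⁻¹ * f * ((k : L) * g⁻¹)⁻¹ = (k : L) * (g⁻¹ * f * g) * (k : L)⁻¹ := by group
      _ = u := by rw [← hu, this, mul_inv_cancel_right]
  · have hxP : (⟨x, mem_centralizer_singleton_iff.2 hxu⟩ : ↥(centralizer ({u} : Set L))) ∈
        (P : Subgroup ↥(centralizer ({u} : Set L))) := hP (S.mem_iff.2 hxz)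
    rw [← hk, Sylow.coe_subgroup_smul, Subgroup.mem_pointwise_smul_iff_inv_smul_mem] at hxP
    have hxT : (k : L)⁻¹ * x * k ∈ T := by
      simpa [IsPGroup.toSylow_coe, Subgroup.mem_subgroupOf, mul_assoc] using hxP
    rw [← hT] at hxT
    obtain ⟨r, hr, er⟩ := hxT
    have e : ((k : L) * g⁻¹)⁻¹ * x * ((k : L) * g⁻¹) = r := by
      calc _ = g * ((k : L)⁻¹ * x * k) * g⁻¹ := by group
        _ = r := by rw [← er]; show g * (g⁻¹ * r * g⁻¹⁻¹) * g⁻¹ = r; group
    rw [e]
    exact S.mem_iff.1 hr

/-- The centre of `R` is `⟨z⟩`. -/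
theorem central {f : L} (hf : f * z = z * f) (hfR : ∀ x : L, x * z = z * x → f * x = x * f) :
    f = 1 ∨ f = z := by
  haveI : Fact (Nat.Prime 2) := ⟨Nat.prime_two⟩
  haveI := S.simple
  by_contra hcon
  push Not at hcon
  obtain ⟨hf1, hfz⟩ := hcon
  obtain ⟨s, t, hs, hsne, hsz, ht, htne, htz, hlist⟩ := S.exists_list
  have hf2 : f * f = 1 := (S.elementary hs hsne hf (hfR s hsz) hf (hfR s hsz)).1
  -- a subgroup containing the conjugates of `z` and avoiding `f`
  let W : Subgroup L := closure {z, s, t}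
  have hsR := S.mem_iff.2 hsz
  have htR := S.mem_iff.2 htz
  have hzR : z ∈ (R : Subgroup L) := S.mem_iff.2 rfl
  have hWR : W ≤ (R : Subgroup L) := (closure_le _).2 (by rintro x (rfl | rfl | rfl) <;> assumption)
  obtain ⟨hs2, -⟩ := S.conj_facts hs
  obtain ⟨ht2, -⟩ := S.conj_facts ht
  have hconjz : ∀ {a b : L}, a * z = z * a → b * z = z * b → ∃ e : L, (e = 1 ∨ e = z) ∧ a * b = e * b * a := by
    intro a b ha hb
    exact ⟨_, S.comm_mem a b ha hb, by group⟩
  -- every element of `W` is `e * s ^ i * t ^ j`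
  let P : L → Prop := fun x => ∃ e : L, (e = 1 ∨ e = z) ∧ (x = e ∨ x = e * s ∨ x = e * t ∨ x = e * (s * t))
  have hPW : ∀ x ∈ W, P x := by
    intro x hx
    have hmul : ∀ a : L, a ∈ ({z, s, t} : Set L) → ∀ y, P y → P (a * y) := by
      have hee : ∀ {a b : L}, (a = 1 ∨ a = z) → (b = 1 ∨ b = z) → (a * b = 1 ∨ a * b = z) := by
        rintro a b (rfl | rfl) (rfl | rfl) <;> simp [S.sq]
      obtain ⟨k, hk, hts⟩ := hconjz htz hsz
      intro a ha y ⟨e, he, hy⟩
      have hcom : ∀ w : L, w * z = z * w → w * e = e * w := by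
        intro w hw
        rcases he with rfl | rfl
        · rw [mul_one, one_mul]
        · exact hw
      rcases ha with rfl | rfl | rfl
      · refine ⟨a * e, hee (Or.inr rfl) he, ?_⟩
        rcases hy with rfl | rfl | rfl | rfl <;> simp [mul_assoc]
      · have := hcom a hsz
        rcases hy with rfl | rfl | rfl | rfl
        · exact ⟨y, he, Or.inr (Or.inl this)⟩
        · exact ⟨e, he, Or.inl (by rw [← mul_assoc, this, mul_assoc, hs2, mul_one])⟩
        · exact ⟨e, he, Or.inr (Or.inr (Or.inr (by rw [← mul_assoc, this, mul_assoc])))⟩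
        · exact ⟨e, he, Or.inr (Or.inr (Or.inl (by
            rw [← mul_assoc, this, mul_assoc, ← mul_assoc a a t, hs2, one_mul])))⟩
      · have := hcom a htz
        have hke := hee he hk
        rcases hy with rfl | rfl | rfl | rfl
        · exact ⟨y, he, Or.inr (Or.inr (Or.inl this))⟩
        · exact ⟨e * k, hke, Or.inr (Or.inr (Or.inr (by
            rw [← mul_assoc a e s, this, mul_assoc e a s, hts]; group)))⟩
        · exact ⟨e, he, Or.inl (by rw [← mul_assoc, this, mul_assoc, ht2, mul_one])⟩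
        · exact ⟨e * k, hke, Or.inr (Or.inl (by
            rw [← mul_assoc a e (s * a), this, mul_assoc e a (s * a), ← mul_assoc a s a, hts,
              mul_assoc (k * s) a a, ht2, mul_one]
            group))⟩
    induction hx using closure_induction_left with
    | one => exact ⟨1, Or.inl rfl, Or.inl rfl⟩
    | mul_left a ha y _ hy => exact hmul a ha y hy
    | inv_mul_cancel a ha y _ hy =>
      have e : a⁻¹ = a := by
        rcases ha with rfl | rfl | rfl
        · exact inv_eq_of_mul_eq_one_right S.sq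
        · exact inv_eq_of_mul_eq_one_right hs2
        · exact inv_eq_of_mul_eq_one_right ht2
      rw [e]
      exact hmul a ha y hy
  have hzW : z ∈ W := subset_closure (Or.inl rfl)
  have hsW : s ∈ W := subset_closure (Or.inr (Or.inl rfl))
  have htW : t ∈ W := subset_closure (Or.inr (Or.inr rfl))
  have hfW : f ∉ W := by
    intro hfW
    obtain ⟨e, he, hfe⟩ := hPW f hfW
    have cw : ∀ w : L, f = e * w → ∀ x : L, x * z = z * x → w * x = x * w := by
      intro w hw x hx
      have he' : Commute e x := by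
        rcases he with rfl | rfl
        · exact Commute.one_left x
        · exact hx.symm
      have h1 : Commute (e * w) x := hw ▸ hfR x hx
      have h2 := Commute.mul_left (Commute.inv_left he') h1
      rw [inv_mul_cancel_left] at h2
      exact h2.eq
    rcases hfe with rfl | h | h | h
    · rcases he with rfl | rfl <;> contradiction
    · obtain ⟨y, hy, hys⟩ := S.exists_swap hs hsne hsz
      rw [← cw s h y hy, mul_inv_cancel_right, eq_comm, mul_eq_left] at hys
      exact S.ne_one hys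
    · obtain ⟨y, hy, hyt⟩ := S.exists_swap ht htne htz
      rw [← cw t h y hy, mul_inv_cancel_right, eq_comm, mul_eq_left] at hyt
      exact S.ne_one hyt
    · have h1 : s * (t * s) = s * (s * t) := by rw [← mul_assoc]; exact cw _ h s hsz
      have hst : t * s = s * t := mul_left_cancel h1
      rcases S.at_most_three hs hsne ht htne hsz htz hst.symm with e' | e'
      · rw [e', hs2, mul_one] at h
        rw [h] at hf1 hfz
        rcases he with rfl | rfl <;> contradiction
      · rw [e', ← mul_assoc s s z, hs2, one_mul] at h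
        rw [h] at hf1 hfz
        rcases he with rfl | rfl
        · exact hfz (one_mul _)
        · exact hf1 S.sq
  obtain ⟨M, ⟨hWM, hMR, hfM⟩, hmax⟩ := WellFounded.has_min
    (wellFounded_gt : WellFounded (α := Subgroup L) (· > ·))
    {M : Subgroup L | W ≤ M ∧ M ≤ (R : Subgroup L) ∧ f ∉ M} ⟨W, le_rfl, hWR, hfW⟩
  have hMz : ∀ {x y : L}, x * z = z * x → y * z = z * y → x * y * x⁻¹ * y⁻¹ ∈ M := fun hx hy => by
    rcases S.comm_mem _ _ hx hy with e | e <;> rw [e]
    · exact one_mem _
    · exact hWM hzW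
  have hfR' : f ∈ (R : Subgroup L) := S.mem_iff.2 hf
  have hcov : ∀ x ∈ (R : Subgroup L), x ∈ M ∨ f * x ∈ M := by
    intro x hx
    by_cases hxM : x ∈ M
    · exact Or.inl hxM
    refine Or.inr ?_
    have hxz := S.mem_iff.1 hx
    have hxx : x * x ∈ M := by
      rcases S.sq_mem x hxz with e | e <;> rw [e]
      · exact one_mem _
      · exact hWM hzW
    have hnorm : ∀ m ∈ M, x * m * x⁻¹ ∈ M := fun m hm => by
      have := mul_mem (hMz hxz (S.mem_iff.1 (hMR hm))) hm
      rwa [inv_mul_cancel_right] at this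
    have hnorm' : ∀ m ∈ M, x⁻¹ * m * x ∈ M := fun m hm => by
      have h1 := hnorm m hm
      have h2 := mul_mem (mul_mem (inv_mem hxx) h1) hxx
      simpa [mul_assoc] using h2
    let N : Subgroup L :=
      { carrier := {v | v ∈ M ∨ x⁻¹ * v ∈ M}
        one_mem' := Or.inl (one_mem _)
        mul_mem' := by
          rintro a b (ha | ha) (hb | hb)
          · exact Or.inl (mul_mem ha hb)
          · right
            have := mul_mem (hnorm' a ha) hb
            simpa [mul_assoc] using this
          · right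
            have := mul_mem ha hb
            simpa [mul_assoc] using this
          · left
            have := mul_mem (mul_mem (hnorm _ ha) hxx) hb
            simpa [mul_assoc] using this
        inv_mem' := by
          rintro a (ha | ha)
          · exact Or.inl (inv_mem ha)
          · right
            have := mul_mem (inv_mem hxx) (hnorm _ (inv_mem ha))
            simpa [mul_assoc] using this }
    have hMN : M < N := by
      refine lt_of_le_of_ne (fun m hm => Or.inl hm) fun e => hxM ?_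
      rw [e]
      exact Or.inr (by simp)
    have hNR : N ≤ (R : Subgroup L) := by
      rintro v (hv | hv)
      · exact hMR hv
      · simpa using mul_mem hx (hMR hv)
    by_contra hfx
    refine hmax N ⟨hWM.trans hMN.le, hNR, ?_⟩ hMN
    rintro (h | h)
    · exact hfM h
    · apply hfx
      have e : f * x = x * x * (x⁻¹ * f) := by
        rw [hfR x hxz]; group
      rw [e]
      exact mul_mem hxx h
  have hcard : 2 * Nat.card M = Nat.card (R : Subgroup L) := by
    rw [← Subgroup.card_mul_index (M.subgroupOf (R : Subgroup L)),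
      Nat.card_congr (subgroupOfEquivOfLe hMR).toEquiv, mul_comm 2]
    congr 1
    refine (index_eq_two_iff'.2 ⟨⟨f, hfR'⟩, fun b => ?_⟩).symm
    by_cases hb : (b : L) ∈ M
    · refine Or.inr ⟨hb, fun h => hfM ?_⟩
      have := mul_mem (show f * (b : L) ∈ M from h) (inv_mem hb)
      rwa [mul_inv_cancel_right] at this
    · exact Or.inl ⟨(hcov b b.2).resolve_left hb, hb⟩
  have hno : ∀ H : Subgroup L, H.index ≠ 2 := fun H hH => by
    haveI := normal_of_index_eq_two hH
    rcases Normal.eq_bot_or_eq_top (H := H) inferInstance with rfl | rfl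
    · rw [index_bot] at hH
      exact S.nc (SmallGroups.isMulCommutative_of_prime_card (hH ▸ Nat.prime_two))
    · simp at hH
  obtain ⟨g, hg⟩ := Invol.exists_conj_mem_of_no_index_two hno R M hcard
    (orderOf_eq_prime (by rw [pow_two, hf2]) hf1)
  set u := g⁻¹ * f * g with hu
  have huR := hMR hg
  have huz := S.mem_iff.1 huR
  by_cases hucent : ∀ x : L, x * z = z * x → u * x = x * u
  · obtain ⟨n, hn, he⟩ := R.conj_eq_normalizer_conj_of_mem_centralizer f g
      (fun x hx => (hfR x (S.mem_iff.1 hx)).symm) (fun x hx => (hucent x (S.mem_iff.1 hx)).symm)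
    have hnz := S.norm n hn
    apply hfM
    have e : u = f := by rw [hu, he, mul_assoc n⁻¹ f n, hfR n hnz, inv_mul_cancel_left]
    exact e ▸ hg
  push Not at hucent
  obtain ⟨y, hyz, hyu⟩ := hucent
  obtain ⟨h, hhu, hsub⟩ := S.exists_sylow_conj hfR g
  rw [← hu] at hhu hsub
  set c := h * z * h⁻¹ with hc
  have hcc : IsConj z c := isConj_iff.2 ⟨h, rfl⟩
  have hcne : c ≠ z := by
    intro e
    have hh' : h * z = z * h := mul_inv_eq_iff_eq_mul.1 e
    apply hyu
    rw [← hhu, ← hfR h hh', mul_inv_cancel_right]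
    exact hfR y hyz
  have hxc : ∀ x : L, x * u = u * x → x * z = z * x → x * c = c * x := fun x hx hx' => by
    have := hsub x hx hx'
    calc x * c = h * ((h⁻¹ * x * h) * z) * h⁻¹ := by rw [hc]; group
      _ = c * x := by rw [this, hc]; group
  have hcz : c * z = z * c := (hxc z huz.symm rfl).symm
  have huc : u * c = c * u := hxc u rfl huz
  obtain ⟨hc2, -, hcm2, -⟩ := S.conj_facts hcc
  obtain ⟨y1, hy1, hy1c⟩ := S.exists_swap hcc hcne hcz
  obtain ⟨y2, hy2, hy2z⟩ := S.exists_swap' hcc hcne hcz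
  -- x' = u * c is central in C(z) and in C(c)
  have hcomm_u : ∀ x : L, x * c = c * x → x * z = z * x → x * u = u * x := fun x hx hx' =>
    (S.elementary hcc hcne hx' hx huz huc).2
  have hy1u : y1 * u * y1⁻¹ = u * z := by
    rcases S.comm_mem y1 u hy1 huz with e | e
    · exfalso
      have := hxc y1 (mul_inv_eq_iff_eq_mul.1 (mul_inv_eq_one.1 e)) hy1
      rw [this, mul_inv_cancel_right, eq_comm, mul_eq_left] at hy1c
      exact S.ne_one hy1c
    · rw [mul_inv_eq_iff_eq_mul.1 e, huz]
  have hx' : y1 * (u * c) * y1⁻¹ = u * c := by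
    calc y1 * (u * c) * y1⁻¹ = (y1 * u * y1⁻¹) * (y1 * c * y1⁻¹) := by group
      _ = u * (z * c) * z := by rw [hy1u, hy1c]; group
      _ = u * c * (z * z) := by rw [← hcz]; group
      _ = u * c := by rw [S.sq, mul_one]
  have hx'R : ∀ x : L, x * z = z * x → u * c * x = x * (u * c) := by
    intro x hx
    rcases S.comm_mem x c hx hcz with e | e
    · have e' := mul_inv_eq_iff_eq_mul.1 (mul_inv_eq_one.1 e)
      exact (Commute.mul_right (show Commute x u from hcomm_u x e' hx) e').eq.symm
    · have hxc' : x * c * x⁻¹ = c * z := by rw [mul_inv_eq_iff_eq_mul.1 e, hcz]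
      have hw : (y1⁻¹ * x) * c = c * (y1⁻¹ * x) := by
        have e1 : y1⁻¹ * x * c * x⁻¹ * y1 = c := by
          calc y1⁻¹ * x * c * x⁻¹ * y1 = y1⁻¹ * (x * c * x⁻¹) * y1 := by group
            _ = y1⁻¹ * (y1 * c * y1⁻¹) * y1 := by rw [hxc', hy1c]
            _ = c := by group
        calc y1⁻¹ * x * c = y1⁻¹ * x * c * x⁻¹ * y1 * (y1⁻¹ * x) := by group
          _ = c * (y1⁻¹ * x) := by rw [e1]
      have hwz : (y1⁻¹ * x) * z = z * (y1⁻¹ * x) :=
        ((Commute.inv_left (hy1 : Commute y1 z)).mul_left hx).eq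
      have h1 : Commute (y1⁻¹ * x) (u * c) := Commute.mul_right (show Commute (y1⁻¹ * x) u from hcomm_u _ hw hwz) hw
      have h2 : Commute y1 (u * c) := mul_inv_eq_iff_eq_mul.1 hx'
      have := h2.mul_left h1
      rw [mul_inv_cancel_left] at this
      exact this.eq.symm
  have hy2' : y2 * (u * c) = u * c * y2 := by
    have hyu' : y2 * u = u * y2 := by
      have h1 : (h⁻¹ * y2 * h) * z = z * (h⁻¹ * y2 * h) := by
        calc h⁻¹ * y2 * h * z = h⁻¹ * (y2 * c) * h := by rw [hc]; group
          _ = z * (h⁻¹ * y2 * h) := by rw [hy2, hc]; group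
      calc y2 * u = h * ((h⁻¹ * y2 * h) * f) * h⁻¹ := by rw [← hhu]; group
        _ = u * y2 := by rw [← hfR _ h1, ← hhu]; group
    exact (Commute.mul_right (show Commute y2 u from hyu') hy2).eq
  -- an element carrying `c` to `z` and fixing `u * c`
  set m := y2 * y1 with hm
  have hmc : m * c * m⁻¹ = z := by
    calc m * c * m⁻¹ = y2 * (y1 * c * y1⁻¹) * y2⁻¹ := by rw [hm]; group
      _ = (y2 * c * y2⁻¹) * (y2 * z * y2⁻¹) := by rw [hy1c]; group
      _ = c * (z * c) := by rw [hy2z, hy2, mul_inv_cancel_right]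
      _ = z := by rw [← mul_assoc, hcz, mul_assoc, hc2, mul_one]
  have hmx : m * (u * c) * m⁻¹ = u * c := by
    calc m * (u * c) * m⁻¹ = y2 * (y1 * (u * c) * y1⁻¹) * y2⁻¹ := by rw [hm]; group
      _ = u * c := by rw [hx', hy2', mul_inv_cancel_right]
  have hmu : (m * h) * f * (m * h)⁻¹ = u * c * z := by
    calc (m * h) * f * (m * h)⁻¹ = m * u * m⁻¹ := by rw [← hhu]; group
      _ = m * (u * c * c) * m⁻¹ := by rw [mul_assoc u c c, hc2, mul_one]
      _ = (m * (u * c) * m⁻¹) * (m * c * m⁻¹) := by group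
      _ = u * c * z := by rw [hmx, hmc]
  obtain ⟨n, hn, he⟩ := R.conj_eq_normalizer_conj_of_mem_centralizer f (m * h)⁻¹
    (fun x hx => (hfR x (S.mem_iff.1 hx)).symm) (by
      rw [inv_inv, hmu]
      intro x hx
      have hxz := S.mem_iff.1 hx
      exact (Commute.mul_right (show Commute x (u * c) from (hx'R x hxz).symm) hxz).eq)
  rw [inv_inv, hmu, mul_assoc n⁻¹ f n, hfR n (S.norm n hn), inv_mul_cancel_left] at he
  apply hfM
  rw [← he]
  refine mul_mem (mul_mem hg (hWM ?_)) (hWM hzW)
  rcases hlist c hcc hcne hcz with e | e | e | e <;> rw [e]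
  · exact hsW
  · exact mul_mem hsW hzW
  · exact htW
  · exact mul_mem htW hzW

theorem equiv_dihedral : Nonempty (↥(R : Subgroup L) ≃* DihedralGroup 4) := by
  obtain ⟨s, -, hs, hsne, hsz, -, -, -, -⟩ := S.exists_list
  obtain ⟨hs2, -⟩ := S.conj_facts hs
  have hs1 : s ≠ 1 := fun e => S.ne_one (isConj_one_left.1 (e ▸ hs))
  obtain ⟨y₀, hy₀z, hy₀⟩ := S.exists_swap hs hsne hsz
  -- an involution moving s
  obtain ⟨y, hyz, hys, hy2⟩ : ∃ y : L, y * z = z * y ∧ y * s * y⁻¹ = s * z ∧ y * y = 1 := by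
    rcases S.sq_mem y₀ hy₀z with e | e
    · exact ⟨y₀, hy₀z, hy₀, e⟩
    · refine ⟨s * y₀, ((show Commute s z from hsz).mul_left hy₀z).eq, ?_, ?_⟩
      · calc s * y₀ * s * (s * y₀)⁻¹ = s * (y₀ * s * y₀⁻¹) * s⁻¹ := by group
          _ = s * (s * z) * s⁻¹ := by rw [hy₀]
          _ = s * z * (z⁻¹ * (s * z)) * s⁻¹ := by group
          _ = s * z := by rw [hsz]; group
      · calc s * y₀ * (s * y₀) = s * (y₀ * s * y₀⁻¹) * (y₀ * y₀) := by group
          _ = (s * s) * (z * z) := by rw [hy₀, e]; group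
          _ = 1 := by rw [hs2, S.sq, one_mul]
  have hzs : z * s = s * z := hsz.symm
  have hys' : y * s = s * z * y := mul_inv_eq_iff_eq_mul.1 hys
  have inA : ∀ x : L, x * z = z * x → x * s = s * x → x = 1 ∨ x = z ∨ x = s ∨ x = s * z := by
    intro x hxz hxs
    have cent : ∀ w : L, w * z = z * w → w * s = s * w → y * w = w * y → w = 1 ∨ w = z := by
      intro w hwz hws hyw
      refine S.central hwz fun v hv => ?_
      rcases S.comm_mem v s hv hsz with e | e
      · exact (S.elementary hs hsne hwz hws hv (mul_inv_eq_iff_eq_mul.1 (mul_inv_eq_one.1 e))).2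
      · have hvs : v * s * v⁻¹ = s * z := by rw [mul_inv_eq_iff_eq_mul.1 e, hzs]
        have hq : (y⁻¹ * v) * s = s * (y⁻¹ * v) := by
          calc y⁻¹ * v * s = y⁻¹ * (v * s * v⁻¹) * v := by group
            _ = y⁻¹ * (y * s * y⁻¹) * v := by rw [hvs, hys]
            _ = s * (y⁻¹ * v) := by group
        have hqz : (y⁻¹ * v) * z = z * (y⁻¹ * v) := ((Commute.inv_left (hyz : Commute y z)).mul_left hv).eq
        have h1 : Commute w (y⁻¹ * v) := (S.elementary hs hsne hwz hws hqz hq).2
        have h2 := ((show Commute y w from hyw).symm).mul_right h1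
        rw [mul_inv_cancel_left] at h2
        exact h2.eq
    rcases S.comm_mem y x hyz hxz with e | e
    · rcases cent x hxz hxs (mul_inv_eq_iff_eq_mul.1 (mul_inv_eq_one.1 e)) with r | r
      · exact Or.inl r
      · exact Or.inr (Or.inl r)
    · have h : y * (x * s) = x * s * y := by
        refine mul_inv_eq_iff_eq_mul.1 ?_
        calc y * (x * s) * y⁻¹ = (y * x * y⁻¹) * (y * s * y⁻¹) := by group
          _ = z * (x * s) * z := by rw [mul_inv_eq_iff_eq_mul.1 e, hys]; group
          _ = x * s * (z * z) := by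
            rw [← ((show Commute x z from hxz).mul_left (hsz : Commute s z)).eq]; group
          _ = x * s := by rw [S.sq, mul_one]
      rcases cent (x * s) ((show Commute x z from hxz).mul_left hsz).eq
        ((show Commute x s from hxs).mul_left (Commute.refl s)).eq h with r | r
      · refine Or.inr (Or.inr (Or.inl (mul_right_cancel (b := s) ?_)))
        rw [r, hs2]
      · refine Or.inr (Or.inr (Or.inr (mul_right_cancel (b := s) ?_)))
        rw [r, mul_assoc, hzs, ← mul_assoc, hs2, one_mul]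
  set a := s * y with ha
  have haz : a * z = z * a := ((show Commute s z from hsz).mul_left hyz).eq
  have ha2 : a * a = z := by
    calc s * y * (s * y) = s * (y * s) * y := by group
      _ = s * s * z * (y * y) := by rw [hys']; group
      _ = z := by rw [hs2, hy2, one_mul, mul_one]
  let a' : ↥(R : Subgroup L) := ⟨a, S.mem_iff.2 haz⟩
  let y' : ↥(R : Subgroup L) := ⟨y, S.mem_iff.2 hyz⟩
  haveI : Fact (Nat.Prime 2) := ⟨Nat.prime_two⟩
  have hord : orderOf a' = 4 := by
    rw [show (4 : ℕ) = 2 ^ (1 + 1) by norm_num]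
    refine orderOf_eq_prime_pow ?_ ?_
    · intro e
      have := congrArg Subtype.val e
      simp only [pow_one, pow_two, MulMemClass.coe_mul, OneMemClass.coe_one, a'] at this
      exact S.ne_one (ha2.symm.trans this)
    · apply Subtype.ext
      rw [SubmonoidClass.coe_pow]
      show a ^ (2 ^ (1 + 1)) = 1
      rw [show (2 : ℕ) ^ (1 + 1) = 2 * 2 by norm_num, pow_mul, pow_two, pow_two, ha2, S.sq]
  have hconj : y * a * y⁻¹ = a⁻¹ := by
    refine eq_inv_of_mul_eq_one_left ?_
    calc y * a * y⁻¹ * a = (y * s) * s * y := by rw [ha]; group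
      _ = s * (z * y) * (s * y) := by rw [hys']; group
      _ = s * z * (y * s) * y := by group
      _ = s * (z * s) * z * (y * y) := by rw [hys']; group
      _ = (s * s) * (z * z) := by rw [hzs, hy2]; group
      _ = 1 := by rw [hs2, S.sq, one_mul]
  have hnm : y' ∉ zpowers a' := by
    intro hmem
    obtain ⟨k, hk⟩ := hmem
    have hc : Commute (a' ^ k) a' := (Commute.refl a').zpow_left k
    simp only at hk
    rw [hk] at hc
    have h1 : y * a = a * y := congrArg Subtype.val hc.eq
    rw [h1, mul_inv_cancel_right] at hconj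
    have h2 : a * a = 1 := by nth_rewrite 2 [hconj]; exact mul_inv_cancel a
    exact S.ne_one (ha2.symm.trans h2)
  refine TwoGroups.equiv_dihedral_of_generators (a := a') (b := y') hord ?_ hnm (Subtype.ext hy2)
    (Subtype.ext hconj)
  -- at most eight elements
  refine le_antisymm ?_ ?_
  · let v : Fin 8 → L := ![1, z, s, s * z, y, z * y, s * y, s * z * y]
    have hsub : ((R : Subgroup L) : Set L) ⊆ Set.range v := by
      intro x hx
      have hxz := S.mem_iff.1 hx
      rcases S.comm_mem x s hxz hsz with e | e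
      · rcases inA x hxz (mul_inv_eq_iff_eq_mul.1 (mul_inv_eq_one.1 e)) with r | r | r | r
        · exact ⟨0, r.symm⟩
        · exact ⟨1, r.symm⟩
        · exact ⟨2, r.symm⟩
        · exact ⟨3, r.symm⟩
      · have h : x * y * s = s * (x * y) := by
          refine mul_inv_eq_iff_eq_mul.1 ?_
          calc x * y * s * (x * y)⁻¹ = x * (y * s * y⁻¹) * x⁻¹ := by group
            _ = (x * s * x⁻¹) * (x * z * x⁻¹) := by rw [hys]; group
            _ = z * s * z := by rw [mul_inv_eq_iff_eq_mul.1 e, hxz, mul_inv_cancel_right]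
            _ = s := by rw [hzs, mul_assoc, S.sq, mul_one]
        have back : ∀ w : L, x * y = w → x = w * y := fun w hw => by
          rw [← hw, mul_assoc, hy2, mul_one]
        rcases inA (x * y) ((show Commute x z from hxz).mul_left hyz).eq h with r | r | r | r
        · exact ⟨4, ((back _ r).trans (one_mul y)).symm⟩
        · exact ⟨5, (back _ r).symm⟩
        · exact ⟨6, (back _ r).symm⟩
        · exact ⟨7, (back _ r).symm⟩
    have h1 := Set.ncard_le_ncard hsub (Set.toFinite _)
    rw [← Nat.card_coe_set_eq] at h1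
    refine le_trans h1 ?_
    rw [← Nat.card_coe_set_eq]
    simpa using Finite.card_range_le v
  · have h1 := Subgroup.card_mul_index (zpowers a')
    rw [Nat.card_zpowers, hord] at h1
    have h2 : (zpowers a').index ≠ 1 := fun e => hnm (index_eq_one.1 e ▸ mem_top y')
    have h3 : (zpowers a').index ≠ 0 := index_ne_zero_of_finite
    omega

end Setup

end Cfsg.Agent.LargeExtra.Dihedral
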