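import Cfsg.Agent.LargeExtra.Large

/-!
Images of subgroups of an extraspecial group that are again extraspecial.
-/

set_option autoImplicit false

namespace Cfsg.Agent.LargeExtra

open Cfsg

/-- Recognition from the three dichotomies. -/
theorem centralInvolution_of {X : Type*} [Group X] [Finite X] {Y : Subgroup X} {y : X}
    (hY : IsPGroup 2 ↥Y) (hy : y ∈ Y) (hy2 : y * y = 1) (hy1 : y ≠ 1) (hc : ∀ x ∈ Y, x * y = y * x)
    (hz : ∀ x ∈ Y, (∀ w ∈ Y, w * x = x * w) → x = 1 ∨ x = y)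
    (hcomm : ∀ u ∈ Y, ∀ v ∈ Y, u * v * u⁻¹ * v⁻¹ = 1 ∨ u * v * u⁻¹ * v⁻¹ = y)
    (hsq : ∀ u ∈ Y, u * u = 1 ∨ u * u = y) (hna : ∃ u ∈ Y, ∃ v ∈ Y, u * v ≠ v * u) :
    CentralInvolution Y y := by
  haveI : Fact (Nat.Prime 2) := ⟨Nat.prime_two⟩
  let y' : ↥Y := ⟨y, hy⟩
  have hyc : y' ∈ Subgroup.center ↥Y := Subgroup.mem_center_iff.2 fun w => Subtype.ext (hc w w.2)
  have hmem : ∀ w : ↥Y, (w : X) = 1 ∨ (w : X) = y → w ∈ Subgroup.center ↥Y := by
    rintro w (e | e)
    · rw [show w = 1 from Subtype.ext e]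
      exact one_mem _
    · rw [show w = y' from Subtype.ext e]
      exact hyc
  have hcen : ∀ w : ↥Y, w ∈ Subgroup.center ↥Y → (w : X) = 1 ∨ (w : X) = y := fun w hw =>
    hz w w.2 fun v hv => congrArg Subtype.val (Subgroup.mem_center_iff.1 hw ⟨v, hv⟩)
  have hcard : Nat.card (Subgroup.center ↥Y) = 2 := by
    rw [Nat.card_eq_two_iff]
    refine ⟨1, ⟨y', hyc⟩, fun e => hy1 (congrArg (fun w : Subgroup.center ↥Y => ((w : ↥Y) : X)) e).symm, ?_⟩
    refine Set.eq_univ_iff_forall.2 fun w => ?_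
    rcases hcen w w.2 with e | e
    · exact Or.inl (Subtype.ext (Subtype.ext e))
    · exact Or.inr (Subtype.ext (Subtype.ext e))
  have hE : IsExtraspecial 2 ↥Y := by
    refine PGroup.isExtraspecial_of_center hY hcard ?_ ?_ fun w => ?_
    · rintro h
      obtain ⟨u, hu, v, hv, huv⟩ := hna
      exact huv (congrArg Subtype.val (h.is_comm.comm ⟨u, hu⟩ ⟨v, hv⟩))
    · rw [commutator_eq_closure, Subgroup.closure_le]
      rintro _ ⟨u, v, rfl⟩
      exact hmem _ (hcomm u u.2 v v.2)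
    · refine hmem _ ?_
      rw [pow_two]
      exact hsq w w.2
  obtain ⟨y₀, h⟩ := exists_centralInvolution hE
  obtain rfl := (h.of_central y hy fun q hq => hc q hq).resolve_left hy1
  exact h

/-- Dichotomies are preserved by homomorphisms. -/
theorem map_pair {G X : Type*} [Group G] [Group X] (π : G →* X) {u z : G} (h : u = 1 ∨ u = z) :
    π u = 1 ∨ π u = π z := by
  rcases h with rfl | rfl
  · exact Or.inl (map_one π)
  · exact Or.inr rfl

end Cfsg.Agent.LargeExtra
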