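import Cfsg.Agent.LargeExtra.Pair

/-!
The subgroup generated by `Q` and `g Q g⁻¹` when the conjugate `b = g z g⁻¹` of the central involution lies in `Q`.
-/

set_option autoImplicit false

namespace Cfsg.Agent.LargeExtra

open Cfsg

variable {G : Type*} [Group G]

namespace CentralInvolution

variable {Q : Subgroup G} {z : G}

/-- Elements centralising `z` and the centraliser of `b` in `Q` lie in the four-group of `z` and `b`. -/
theorem centralizes_centralizer (h : CentralInvolution Q z) [Finite G]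
    (hL2 : Subgroup.centralizer (Q : Set G) = Subgroup.zpowers z)
    (hL3 : Subgroup.centralizer ({z} : Set G) ≤ Subgroup.normalizer (Q : Set G))
    {b r : G} (hb : b ∈ Q) (hb1 : b ≠ 1) (hbz : b ≠ z) (hbb : b * b = 1) (hrz : r * z = z * r)
    (hrP : ∀ p ∈ Q, p * b = b * p → r * p = p * r) :
    r ∈ Subgroup.closure ({z, b} : Set G) := by
  obtain ⟨y, hy, hyb⟩ := h.exists_swap hb hb1 hbz
  have hzV : z ∈ Subgroup.closure ({z, b} : Set G) := Subgroup.subset_closure (Or.inl rfl)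
  have hbV : b ∈ Subgroup.closure ({z, b} : Set G) := Subgroup.subset_closure (Or.inr rfl)
  -- an element centralising P and moving y by a central element
  have key : ∀ s : G, (∀ p ∈ Q, p * b = b * p → s * p = p * s) → s * y = y * s → s = 1 ∨ s = z := by
    intro s hs hsy
    refine h.mem_zpowers_iff.1 (hL2 ▸ fun q hq => ?_)
    by_cases hqb : q * b * q⁻¹ = b
    · exact (hs q hq (mul_inv_eq_iff_eq_mul.1 hqb)).symm
    · have e := hs _ (mul_mem (inv_mem hy) hq) (h.conj_ratio hb hy hq hyb hqb)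
      calc q * s = y * ((y⁻¹ * q) * s) := by group
        _ = y * (s * (y⁻¹ * q)) := by rw [e]
        _ = y * s * y⁻¹ * q := by group
        _ = s * q := by rw [← hsy]; group
  have hrN := hL3 (Subgroup.mem_centralizer_singleton_iff.2 hrz)
  have hy' : r * y * r⁻¹ ∈ Q := (Subgroup.mem_normalizer_iff.1 hrN y).1 hy
  have hec : ∀ p ∈ Q, p * b = b * p → p * (y⁻¹ * (r * y * r⁻¹)) = y⁻¹ * (r * y * r⁻¹) * p := by
    intro p hp hpb
    refine (mul_inv_eq_iff_eq_mul.1 (?_ : y⁻¹ * (r * y * r⁻¹) * p * (y⁻¹ * (r * y * r⁻¹))⁻¹ = p)).symm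
    have hrp : r⁻¹ * p * r = p := by rw [mul_assoc, ← hrP p hp hpb, inv_mul_cancel_left]
    rcases h.conj_cases hy hp with e | e
    · calc y⁻¹ * (r * y * r⁻¹) * p * (y⁻¹ * (r * y * r⁻¹))⁻¹
          = y⁻¹ * (r * (y * (r⁻¹ * p * r) * y⁻¹) * r⁻¹) * y := by group
        _ = y⁻¹ * (r * p * r⁻¹) * y := by rw [hrp, e]
        _ = y⁻¹ * p * y := by rw [hrP p hp hpb, mul_inv_cancel_right]
        _ = y⁻¹ * (y * p * y⁻¹) * y := by rw [e]
        _ = p := by group
    · calc y⁻¹ * (r * y * r⁻¹) * p * (y⁻¹ * (r * y * r⁻¹))⁻¹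
          = y⁻¹ * (r * (y * (r⁻¹ * p * r) * y⁻¹) * r⁻¹) * y := by group
        _ = y⁻¹ * ((r * p) * (z * r⁻¹)) * y := by rw [hrp, e]; group
        _ = y⁻¹ * ((p * r) * (r⁻¹ * z)) * y := by
            rw [hrP p hp hpb, show z * r⁻¹ = r⁻¹ * z from ((show Commute r z from hrz).inv_left).eq.symm]
        _ = y⁻¹ * (p * z) * y := by group
        _ = y⁻¹ * (y * p * y⁻¹) * y := by rw [e]
        _ = p := by group
  have hry : ∀ e : G, r * y * r⁻¹ = y * e → r * (y * y) * r⁻¹ = y * e * (y * e) := fun e he => by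
    rw [← he]; group
  have hyy : r * (y * y) * r⁻¹ = y * y := by
    rcases h.sq_mem hy with s | s <;> rw [s]
    · group
    · exact mul_inv_eq_iff_eq_mul.2 hrz
  rcases h.of_commute_centralizer hb hb1 hbz (mul_mem (inv_mem hy) hy') hec with e | e | e | e
  · rcases key r hrP (mul_inv_eq_iff_eq_mul.1 (inv_mul_eq_one.1 e).symm) with s | s <;> rw [s]
    · exact one_mem _
    · exact hzV
  · have e' : r * y * r⁻¹ = y * z := (inv_mul_eq_iff_eq_mul.1 e)
    have hcomm : r * b * y = y * (r * b) := by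
      refine mul_inv_eq_iff_eq_mul.1 ?_
      have hby : b * y * b⁻¹ = y * z := by
        calc b * y * b⁻¹ = b * (y * b * y⁻¹)⁻¹ * y := by group
          _ = b * z⁻¹ * b⁻¹ * y := by rw [hyb]; group
          _ = z * y := by rw [h.inv_eq, h.comm b hb, mul_inv_cancel_right]
          _ = y * z := (h.comm y hy).symm
      calc r * b * y * (r * b)⁻¹ = r * (b * y * b⁻¹) * r⁻¹ := by group
        _ = (r * y * r⁻¹) * (r * z * r⁻¹) := by rw [hby]; group
        _ = y * z * z := by rw [e', mul_inv_eq_iff_eq_mul.2 hrz]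
        _ = y := by rw [mul_assoc, h.sq, mul_one]
    have hrb : ∀ p ∈ Q, p * b = b * p → r * b * p = p * (r * b) := fun p hp hpb => by
      rw [mul_assoc, ← hpb, ← mul_assoc, hrP p hp hpb, mul_assoc]
    have : r = r * b * b := by rw [mul_assoc, hbb, mul_one]
    rw [this]
    rcases key (r * b) hrb hcomm with s | s <;> rw [s]
    · rw [one_mul]; exact hbV
    · exact mul_mem hzV hbV
  · exfalso
    have e' := hry b (inv_mul_eq_iff_eq_mul.1 e)
    rw [hyy] at e'
    apply h.ne_one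
    have : y * b * y * b = y * y * z := by
      calc y * b * y * b = (y * b * y⁻¹) * (y * y) * b := by group
        _ = b * z * (y * y) * b := by rw [hyb]
        _ = b * (z * (y * y * b)) := by group
        _ = b * (y * y * b * z) := by rw [← h.comm _ (mul_mem (mul_mem hy hy) hb)]
        _ = y * y * z := by
          rcases h.sq_mem hy with s | s
          · rw [s, one_mul, one_mul, ← mul_assoc, hbb, one_mul]
          · rw [s, ← h.comm b hb]
            calc b * (b * z * z) = b * b * (z * z) := by group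
              _ = z * z := by rw [hbb, one_mul]
    rw [← mul_assoc, this] at e'
    exact mul_eq_left.1 e'.symm
  · exfalso
    have e' := hry (z * b) (inv_mul_eq_iff_eq_mul.1 e)
    rw [hyy] at e'
    apply h.ne_one
    have : y * (z * b) * (y * (z * b)) = y * y * z := by
      calc y * (z * b) * (y * (z * b)) = (y * z * y⁻¹) * (y * b * y⁻¹) * (y * y) * (z * b) := by group
        _ = z * (b * z) * (y * y) * (z * b) := by rw [h.comm y hy, mul_inv_cancel_right, hyb]
        _ = b * ((y * y) * (z * b)) := by rw [h.comm b hb, ← mul_assoc z z b, h.sq, one_mul, mul_assoc]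
        _ = y * y * z := by
          rcases h.sq_mem hy with s | s
          · rw [s, one_mul, one_mul, ← mul_assoc, h.comm b hb, mul_assoc, hbb, mul_one]
          · rw [s, ← mul_assoc z z b, h.sq, one_mul, hbb]
    rw [this] at e'
    exact mul_eq_left.1 e'.symm

end CentralInvolution

/-- The hypotheses on a pair `z`, `b = g z g⁻¹` with `b` in `Q` and `z` in `g Q g⁻¹`. -/
structure PairData (Q Q' : Subgroup G) (z b : G) : Prop where
  hQ : CentralInvolution Q z
  hQ' : CentralInvolution Q' b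
  hb : b ∈ Q
  hz : z ∈ Q'
  ne : b ≠ z
  hL2 : Subgroup.centralizer (Q : Set G) = Subgroup.zpowers z
  hL3 : Subgroup.centralizer ({z} : Set G) ≤ Subgroup.normalizer (Q : Set G)
  hL3' : Subgroup.centralizer ({b} : Set G) ≤ Subgroup.normalizer (Q' : Set G)
  transport : ∀ m : G, m * z * m⁻¹ = b → Q.map (MulAut.conj m).toMonoidHom = Q'

theorem pairData_of_large [Finite G] {Q : Subgroup G} (hQ : IsLargeExtraspecial Q) {z : G}
    (hz : (Subgroup.center ↥Q).map Q.subtype = Subgroup.zpowers z) {w : ℕ} (hw : 2 ≤ w)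
    (hcard : Nat.card ↥Q = 2 ^ (2 * w + 1)) {g : G} (hgH : g ∉ Subgroup.centralizer ({z} : Set G))
    (hgQ : g * z * g⁻¹ ∈ Q) :
    PairData Q (Q.map (MulAut.conj g).toMonoidHom) z (g * z * g⁻¹) := by
  obtain ⟨hE, hL2, hL3, -⟩ := hQ
  obtain ⟨z', h⟩ := exists_centralInvolution hE
  obtain rfl := h.unique hz
  rw [h.centralizer_center] at hL3
  rw [h.center_eq] at hL2
  have hne : g * z * g⁻¹ ≠ z := fun e => hgH (Subgroup.mem_centralizer_singleton_iff.2 (mul_inv_eq_iff_eq_mul.1 e))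
  refine ⟨h, h.conj g, hgQ, mem_conj_of_conj_mem h hL2 hL3 hw hcard hgQ hne, hne, hL2, hL3, ?_, ?_⟩
  · intro c hc
    have hd : g⁻¹ * c * g ∈ Subgroup.centralizer ({z} : Set G) := by
      rw [Subgroup.mem_centralizer_singleton_iff] at hc ⊢
      calc g⁻¹ * c * g * z = g⁻¹ * (c * (g * z * g⁻¹)) * g := by group
        _ = z * (g⁻¹ * c * g) := by rw [hc]; group
    have := Subgroup.le_normalizer_map (H := Q) (MulAut.conj g).toMonoidHom ⟨_, hL3 hd, rfl⟩
    simpa [mul_assoc] using this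
  · intro m hm
    have hd : g⁻¹ * m ∈ Subgroup.centralizer ({z} : Set G) := by
      rw [Subgroup.mem_centralizer_singleton_iff]
      calc g⁻¹ * m * z = g⁻¹ * (m * z * m⁻¹) * m := by group
        _ = z * (g⁻¹ * m) := by rw [hm]; group
    have hdn := Subgroup.mem_normalizer_iff.1 (hL3 hd)
    ext x
    constructor
    · rintro ⟨q, hq, rfl⟩
      refine ⟨_, (hdn q).1 hq, ?_⟩
      show g * (g⁻¹ * m * q * (g⁻¹ * m)⁻¹) * g⁻¹ = m * q * m⁻¹
      group
    · rintro ⟨q, hq, rfl⟩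
      refine ⟨(g⁻¹ * m)⁻¹ * q * (g⁻¹ * m), (hdn _).2 ?_, ?_⟩
      · simpa [mul_assoc] using hq
      · show m * ((g⁻¹ * m)⁻¹ * q * (g⁻¹ * m)) * m⁻¹ = g * q * g⁻¹
        group

namespace PairData

variable {Q Q' : Subgroup G} {z b : G} (D : PairData Q Q' z b)
include D

theorem zb : b * z = z * b := D.hQ.comm b D.hb

/-- The subgroup `R`. -/
abbrev radical (_ : PairData Q Q' z b) : Subgroup G :=
  (Q' ⊓ Subgroup.centralizer ({z} : Set G)) ⊔ (Q ⊓ Subgroup.centralizer ({b} : Set G))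

theorem left_normalizes : Q ⊓ Subgroup.centralizer ({b} : Set G) ≤
    Subgroup.normalizer ((Q' ⊓ Subgroup.centralizer ({z} : Set G) : Subgroup G) : Set G) := by
  intro p hp
  refine Subgroup.mem_normalizer_iff.2 fun x => ?_
  have hn := Subgroup.mem_normalizer_iff.1 (D.hL3' hp.2) x
  have hc := Subgroup.mem_normalizer_iff.1
    (Subgroup.le_normalizer (D.hQ.le_centralizer hp.1)) x
  exact ⟨fun hx => ⟨hn.1 hx.1, hc.1 hx.2⟩, fun hx => ⟨hn.2 hx.1, hc.2 hx.2⟩⟩

theorem exists_mul {r : G} (hr : r ∈ D.radical) :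
    ∃ x ∈ Q' ⊓ Subgroup.centralizer ({z} : Set G), ∃ p ∈ Q ⊓ Subgroup.centralizer ({b} : Set G), x * p = r := by
  have h : (r : G) ∈ (((Q' ⊓ Subgroup.centralizer ({z} : Set G)) ⊔ (Q ⊓ Subgroup.centralizer ({b} : Set G)) :
      Subgroup G) : Set G) := hr
  rw [Subgroup.coe_mul_of_right_le_normalizer_left _ _ D.left_normalizes] at h
  exact h

theorem radical_le : D.radical ≤ Subgroup.centralizer ({z} : Set G) ⊓ Subgroup.centralizer ({b} : Set G) :=
  sup_le (fun _ hx => ⟨hx.2, D.hQ'.le_centralizer hx.1⟩) (fun _ hx => ⟨D.hQ.le_centralizer hx.1, hx.2⟩)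

theorem inter_le : Q ⊓ Q' ≤ (Q' ⊓ Subgroup.centralizer ({z} : Set G)) ⊓ (Q ⊓ Subgroup.centralizer ({b} : Set G)) :=
  fun _ hx => ⟨⟨hx.2, D.hQ.le_centralizer hx.1⟩, ⟨hx.1, D.hQ'.le_centralizer hx.2⟩⟩

theorem inter_le_radical : Q ⊓ Q' ≤ D.radical := D.inter_le.trans (inf_le_left.trans le_sup_left)

theorem elementary [Finite G] : IsElementaryAbelian 2 (Q ⊓ Q') := by
  have hne := D.ne
  refine ⟨⟨⟨fun x y => Subtype.ext ?_⟩⟩, fun x hx => ?_⟩
  · show (x : G) * y = y * x
    rcases D.hQ.comm_mem x.2.1 y.2.1 with e | e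
    · exact mul_inv_eq_iff_eq_mul.1 (mul_inv_eq_one.1 e)
    · rcases D.hQ'.comm_mem x.2.2 y.2.2 with e' | e'
      · exact mul_inv_eq_iff_eq_mul.1 (mul_inv_eq_one.1 e')
      · exact absurd (e'.symm.trans e) hne
  · rw [pow_two]
    rcases D.hQ.sq_mem hx.1 with e | e
    · exact e
    · rcases D.hQ'.sq_mem hx.2 with e' | e'
      · exact e'
      · exact absurd (e'.symm.trans e) hne

theorem commutator_le_four : ⁅Q ⊔ Q', Q ⊓ Q'⁆ ≤ Subgroup.closure ({z, b} : Set G) := by
  set V := Subgroup.closure ({z, b} : Set G) with hV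
  have hzV : z ∈ V := Subgroup.subset_closure (Or.inl rfl)
  have hbV : b ∈ V := Subgroup.subset_closure (Or.inr rfl)
  let T : Subgroup G :=
    { carrier := {x | (∀ v : G, v ∈ V ↔ x * v * x⁻¹ ∈ V) ∧ ∀ e ∈ Q ⊓ Q', x * e * x⁻¹ * e⁻¹ ∈ V}
      one_mem' := ⟨fun v => by simp, fun e _ => by simp⟩
      mul_mem' := by
        rintro x y ⟨hx, hx'⟩ ⟨hy, hy'⟩
        refine ⟨fun v => (hy v).trans ((hx _).trans (by rw [show x * (y * v * y⁻¹) * x⁻¹ = x * y * v * (x * y)⁻¹ by group])),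
          fun e he => ?_⟩
        have : x * y * e * (x * y)⁻¹ * e⁻¹ = x * (y * e * y⁻¹ * e⁻¹) * x⁻¹ * (x * e * x⁻¹ * e⁻¹) := by group
        rw [this]
        exact mul_mem ((hx _).1 (hy' e he)) (hx' e he)
      inv_mem' := by
        rintro x ⟨hx, hx'⟩
        refine ⟨fun v => ?_, fun e he => ?_⟩
        · rw [hx (x⁻¹ * v * x⁻¹⁻¹), show x * (x⁻¹ * v * x⁻¹⁻¹) * x⁻¹ = v by group]
        · refine (hx _).2 ?_
          rw [show x * (x⁻¹ * e * x⁻¹⁻¹ * e⁻¹) * x⁻¹ = (x * e * x⁻¹ * e⁻¹)⁻¹ by group]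
          exact inv_mem (hx' e he) }
  have gen : ∀ {S : Subgroup G} {a c : G}, CentralInvolution S a → a ∈ V → c ∈ V → c ∈ S →
      Subgroup.closure ({a, c} : Set G) = V → ∀ x ∈ S, (∀ e ∈ Q ⊓ Q', e ∈ S) → x ∈ T := by
    intro S a c hS ha hc hcS hcl x hx hE
    have hle : ∀ y ∈ S, ∀ v ∈ V, y * v * y⁻¹ ∈ V := by
      intro y hy v hv
      have : V ≤ V.comap (MulAut.conj y).toMonoidHom := by
        rw [← hcl, Subgroup.closure_le]
        rintro u (rfl | rfl)
        · show y * u * y⁻¹ ∈ Subgroup.closure _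
          rw [hS.comm y hy, mul_inv_cancel_right]
          exact Subgroup.subset_closure (Or.inl rfl)
        · show y * u * y⁻¹ ∈ Subgroup.closure _
          rcases hS.conj_cases hy hcS with e | e <;> rw [e]
          · exact Subgroup.subset_closure (Or.inr rfl)
          · exact mul_mem (Subgroup.subset_closure (Or.inr rfl)) (Subgroup.subset_closure (Or.inl rfl))
      exact this hv
    refine ⟨fun v => ⟨hle x hx v, fun h => ?_⟩, fun e he => ?_⟩
    · have := hle x⁻¹ (inv_mem hx) _ h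
      simpa [mul_assoc] using this
    · rcases hS.comm_mem hx (hE e he) with r | r <;> rw [r]
      · exact one_mem _
      · exact ha
  have hX : Q ⊔ Q' ≤ T :=
    sup_le (fun x hx => gen D.hQ hzV hbV D.hb hV.symm x hx fun e he => he.1)
      (fun x hx => gen D.hQ' hbV hzV D.hz (by rw [hV, Set.pair_comm]) x hx fun e he => he.2)
  rw [Subgroup.commutator_le]
  intro x hx e he
  exact (hX hx).2 e he

theorem mul_mem_inter {x p : G} (hx : x ∈ Q' ⊓ Subgroup.centralizer ({z} : Set G))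
    (hp : p ∈ Q ⊓ Subgroup.centralizer ({b} : Set G)) : x * p * x⁻¹ * p⁻¹ ∈ Q ⊓ Q' :=
  ⟨Subgroup.mul_mem _ ((Subgroup.mem_normalizer_iff.1 (D.hL3 hx.2) p).1 hp.1) (Subgroup.inv_mem _ hp.1), by
    rw [mul_assoc x p, mul_assoc x]
    exact mul_mem hx.1 ((Subgroup.mem_normalizer_iff.1 (D.hL3' hp.2) _).1 (inv_mem hx.1))⟩

theorem radical_normalizes_inter : D.radical ≤ Subgroup.normalizer ((Q ⊓ Q' : Subgroup G) : Set G) := by
  intro r hr
  obtain ⟨h1, h2⟩ := D.radical_le hr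
  refine Subgroup.mem_normalizer_iff.2 fun x => ?_
  have n1 := Subgroup.mem_normalizer_iff.1 (D.hL3 h1) x
  have n2 := Subgroup.mem_normalizer_iff.1 (D.hL3' h2) x
  exact ⟨fun hx => ⟨n1.1 hx.1, n2.1 hx.2⟩, fun hx => ⟨n1.2 hx.1, n2.2 hx.2⟩⟩

theorem radical_mod_inter [Finite G] {x y : G} (hx : x ∈ D.radical) (hy : y ∈ D.radical) :
    x * y * x⁻¹ * y⁻¹ ∈ Q ⊓ Q' ∧ x ^ 2 ∈ Q ⊓ Q' := by
  haveI : ((Q ⊓ Q').subgroupOf D.radical).Normal := Subgroup.normal_subgroupOf_of_le_normalizer D.radical_normalizes_inter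
  let π : ↥D.radical →* ↥D.radical ⧸ (Q ⊓ Q').subgroupOf D.radical := QuotientGroup.mk' _
  have hπ : ∀ u : ↥D.radical, π u = 1 ↔ (u : G) ∈ Q ⊓ Q' := fun u => QuotientGroup.eq_one_iff u
  have hzE : z ∈ Q ⊓ Q' := ⟨D.hQ.mem, D.hz⟩
  have hbE : b ∈ Q ⊓ Q' := ⟨D.hb, D.hQ'.mem⟩
  have h1 : ∀ u v : ↥D.radical, (u : G) * v * (u : G)⁻¹ * (v : G)⁻¹ ∈ Q ⊓ Q' → Commute (π u) (π v) := by
    intro u v h
    have := (hπ (u * v * u⁻¹ * v⁻¹)).2 (by simpa using h)
    simp only [map_mul, map_inv] at this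
    exact mul_inv_eq_iff_eq_mul.1 (mul_inv_eq_one.1 this)
  have hP : ∀ {u v : G}, u ∈ Q → v ∈ Q → u * v * u⁻¹ * v⁻¹ ∈ Q ⊓ Q' := fun hu hv => by
    rcases D.hQ.comm_mem hu hv with e | e <;> rw [e]
    · exact one_mem _
    · exact hzE
  have hP' : ∀ {u v : G}, u ∈ Q' → v ∈ Q' → u * v * u⁻¹ * v⁻¹ ∈ Q ⊓ Q' := fun hu hv => by
    rcases D.hQ'.comm_mem hu hv with e | e <;> rw [e]
    · exact one_mem _
    · exact hbE
  obtain ⟨a, ha, p, hp, rfl⟩ := D.exists_mul hx
  obtain ⟨c, hc, q, hq, rfl⟩ := D.exists_mul hy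
  let a' : ↥D.radical := ⟨a, Subgroup.mem_sup_left ha⟩
  let p' : ↥D.radical := ⟨p, Subgroup.mem_sup_right hp⟩
  let c' : ↥D.radical := ⟨c, Subgroup.mem_sup_left hc⟩
  let q' : ↥D.radical := ⟨q, Subgroup.mem_sup_right hq⟩
  have hac : Commute (π a') (π c') := h1 a' c' (hP' ha.1 hc.1)
  have haq : Commute (π a') (π q') := h1 a' q' (D.mul_mem_inter ha hq)
  have hap : Commute (π a') (π p') := h1 a' p' (D.mul_mem_inter ha hp)
  have hpc : Commute (π p') (π c') := (h1 c' p' (D.mul_mem_inter hc hp)).symm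
  have hpq : Commute (π p') (π q') := h1 p' q' (hP hp.1 hq.1)
  constructor
  · have hcomm : Commute (π a' * π p') (π c' * π q') := (hac.mul_right haq).mul_left (hpc.mul_right hpq)
    have := (hπ ((a' * p') * (c' * q') * (a' * p')⁻¹ * (c' * q')⁻¹)).1 (by
      simp only [map_mul, map_inv]
      rw [hcomm.eq]
      group)
    simpa [a', p', c', q', mul_assoc] using this
  · have e1 : π a' * π a' = 1 := by
      rw [← map_mul, hπ]
      show a * a ∈ Q ⊓ Q'
      rcases D.hQ'.sq_mem ha.1 with e | e <;> rw [e]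
      · exact one_mem _
      · exact hbE
    have e2 : π p' * π p' = 1 := by
      rw [← map_mul, hπ]
      show p * p ∈ Q ⊓ Q'
      rcases D.hQ.sq_mem hp.1 with e | e <;> rw [e]
      · exact one_mem _
      · exact hzE
    have := (hπ ((a' * p') ^ 2)).1 (by rw [map_pow, map_mul, hap.mul_pow, pow_two, pow_two, e1, e2, one_mul])
    simpa [a', p'] using this

theorem center_radical [Finite G] :
    (Subgroup.center ↥D.radical).map D.radical.subtype = Subgroup.closure ({z, b} : Set G) := by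
  have hz : z ∈ D.radical := D.inter_le_radical ⟨D.hQ.mem, D.hz⟩
  have hb : b ∈ D.radical := D.inter_le_radical ⟨D.hb, D.hQ'.mem⟩
  refine le_antisymm ?_ ?_
  · rintro _ ⟨r, hr, rfl⟩
    refine D.hQ.centralizes_centralizer D.hL2 D.hL3 D.hb D.hQ'.ne_one D.ne D.hQ'.sq
      (Subgroup.mem_centralizer_singleton_iff.1 (D.radical_le r.2).1) fun p hp hpb => ?_
    exact (congrArg Subtype.val (Subgroup.mem_center_iff.1 hr
      ⟨p, Subgroup.mem_sup_right ⟨hp, Subgroup.mem_centralizer_singleton_iff.2 hpb⟩⟩)).symm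
  · rw [Subgroup.closure_le]
    rintro x (rfl | rfl)
    · exact ⟨⟨_, hz⟩, Subgroup.mem_center_iff.2 fun r => Subtype.ext
        (Subgroup.mem_centralizer_singleton_iff.1 (D.radical_le r.2).1), rfl⟩
    · exact ⟨⟨_, hb⟩, Subgroup.mem_center_iff.2 fun r => Subtype.ext
        (Subgroup.mem_centralizer_singleton_iff.1 (D.radical_le r.2).2), rfl⟩

theorem radical_isPGroup : IsPGroup 2 ↥D.radical :=
  IsPGroup.to_sup_of_normal_left' (D.hQ'.isPGroup.to_le inf_le_left) (D.hQ.isPGroup.to_le inf_le_left) D.left_normalizes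

theorem radical_le_sup : D.radical ≤ Q ⊔ Q' := sup_le (inf_le_left.trans le_sup_right) (inf_le_left.trans le_sup_left)

theorem sup_normalizes : Q ⊔ Q' ≤ Subgroup.normalizer (D.radical : Set G) := by
  have key : ∀ q : G, (∀ x ∈ Q' ⊓ Subgroup.centralizer ({z} : Set G), q * x * q⁻¹ ∈ D.radical) →
      (∀ x ∈ Q ⊓ Subgroup.centralizer ({b} : Set G), q * x * q⁻¹ ∈ D.radical) →
      ∀ x ∈ D.radical, q * x * q⁻¹ ∈ D.radical := by
    intro q h1 h2 x hx
    exact (sup_le (fun a ha => h1 a ha) (fun a ha => h2 a ha) :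
      D.radical ≤ D.radical.comap (MulAut.conj q).toMonoidHom) hx
  have hQ1 : ∀ q ∈ Q, ∀ x ∈ D.radical, q * x * q⁻¹ ∈ D.radical := by
    intro q hq
    refine key q (fun x hx => ?_) fun x hx => Subgroup.mem_sup_right ⟨Subgroup.mul_mem _ (Subgroup.mul_mem _ hq hx.1) (Subgroup.inv_mem _ hq), ?_⟩
    · have hxz := Subgroup.mem_centralizer_singleton_iff.1 hx.2
      have hxb := D.hQ'.comm x hx.1
      have hc1 : q * x * q⁻¹ * b = b * (q * x * q⁻¹) := by
        rcases D.hQ.conj_cases (inv_mem hq) D.hb with e | e <;> rw [inv_inv] at e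
        · calc q * x * q⁻¹ * b = q * (x * (q⁻¹ * b * q)) * q⁻¹ := by group
            _ = b * (q * x * q⁻¹) := by rw [e, hxb]; nth_rewrite 1 [← e]; group
        · have hc : x * (q⁻¹ * b * q) = q⁻¹ * b * q * x := by
            rw [e, ← mul_assoc, hxb, mul_assoc, hxz, ← mul_assoc]
          calc q * x * q⁻¹ * b = q * (x * (q⁻¹ * b * q)) * q⁻¹ := by group
            _ = b * (q * x * q⁻¹) := by rw [hc]; group
      have e : q * x * q⁻¹ = x * (x⁻¹ * (q * x * q⁻¹)) := by group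
      rw [e]
      refine mul_mem (Subgroup.mem_sup_left hx) (Subgroup.mem_sup_right ⟨?_, ?_⟩)
      · rw [show x⁻¹ * (q * x * q⁻¹) = x⁻¹ * q * x⁻¹⁻¹ * q⁻¹ by group]
        exact Subgroup.mul_mem _ ((Subgroup.mem_normalizer_iff.1 (D.hL3 (Subgroup.inv_mem _ hx.2)) q).1 hq) (Subgroup.inv_mem _ hq)
      · exact Subgroup.mul_mem _ (Subgroup.inv_mem _ (Subgroup.mem_centralizer_singleton_iff.2 hxb))
          (Subgroup.mem_centralizer_singleton_iff.2 hc1)
    · have hxb := Subgroup.mem_centralizer_singleton_iff.1 hx.2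
      rcases D.hQ.conj_cases hq hx.1 with e | e <;> rw [e] <;> refine Subgroup.mem_centralizer_singleton_iff.2 ?_
      · exact hxb
      · rw [mul_assoc, ← D.zb, ← mul_assoc, hxb, mul_assoc]
  have hQ2 : ∀ q ∈ Q', ∀ x ∈ D.radical, q * x * q⁻¹ ∈ D.radical := by
    intro q hq
    refine key q (fun x hx => Subgroup.mem_sup_left ⟨Subgroup.mul_mem _ (Subgroup.mul_mem _ hq hx.1) (Subgroup.inv_mem _ hq), ?_⟩) fun x hx => ?_
    · have hxz := Subgroup.mem_centralizer_singleton_iff.1 hx.2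
      rcases D.hQ'.conj_cases hq hx.1 with e | e <;> rw [e] <;> refine Subgroup.mem_centralizer_singleton_iff.2 ?_
      · exact hxz
      · rw [mul_assoc, D.zb, ← mul_assoc, hxz, mul_assoc]
    · have hxb := Subgroup.mem_centralizer_singleton_iff.1 hx.2
      have hxz := D.hQ.comm x hx.1
      have hc1 : q * x * q⁻¹ * z = z * (q * x * q⁻¹) := by
        rcases D.hQ'.conj_cases (inv_mem hq) D.hz with e | e <;> rw [inv_inv] at e
        · calc q * x * q⁻¹ * z = q * (x * (q⁻¹ * z * q)) * q⁻¹ := by group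
            _ = z * (q * x * q⁻¹) := by rw [e, hxz]; nth_rewrite 1 [← e]; group
        · have hc : x * (q⁻¹ * z * q) = q⁻¹ * z * q * x := by
            rw [e, ← mul_assoc, hxz, mul_assoc, hxb, ← mul_assoc]
          calc q * x * q⁻¹ * z = q * (x * (q⁻¹ * z * q)) * q⁻¹ := by group
            _ = z * (q * x * q⁻¹) := by rw [hc]; group
      have e : q * x * q⁻¹ = x * (x⁻¹ * (q * x * q⁻¹)) := by group
      rw [e]
      refine mul_mem (Subgroup.mem_sup_right hx) (Subgroup.mem_sup_left ⟨?_, ?_⟩)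
      · rw [show x⁻¹ * (q * x * q⁻¹) = x⁻¹ * q * x⁻¹⁻¹ * q⁻¹ by group]
        exact Subgroup.mul_mem _ ((Subgroup.mem_normalizer_iff.1 (D.hL3' (Subgroup.inv_mem _ hx.2)) q).1 hq) (Subgroup.inv_mem _ hq)
      · exact Subgroup.mul_mem _ (Subgroup.inv_mem _ (Subgroup.mem_centralizer_singleton_iff.2 hxz))
          (Subgroup.mem_centralizer_singleton_iff.2 hc1)
  refine sup_le (fun q hq => Subgroup.mem_normalizer_iff.2 fun x => ⟨hQ1 q hq x, fun h => ?_⟩)
    (fun q hq => Subgroup.mem_normalizer_iff.2 fun x => ⟨hQ2 q hq x, fun h => ?_⟩)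
  · have := hQ1 q⁻¹ (inv_mem hq) _ h
    simpa [mul_assoc] using this
  · have := hQ2 q⁻¹ (inv_mem hq) _ h
    simpa [mul_assoc] using this

end PairData

end Cfsg.Agent.LargeExtra
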