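import Cfsg.Agent.LargeExtra.Large
import Cfsg.Agent.Invol.IndexTwo
import Cfsg.Agent.PGroup.Frattini
import Cfsg.Agent.FGS.Basic

/-!
The structure of a group with a large extraspecial 2-subgroup: the normal closure of the central
involution is abelian, simple, or a product of two conjugate simple groups.
-/

set_option autoImplicit false

namespace Cfsg.Agent.LargeExtra

open Cfsg

variable {G : Type*} [Group G]

/-- The conjugate subgroup. -/
abbrev cj (g : G) (L : Subgroup G) : Subgroup G := L.map (MulAut.conj g).toMonoidHom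

theorem mem_cj {g x : G} {L : Subgroup G} (hx : x ∈ L) : g * x * g⁻¹ ∈ cj g L := ⟨x, hx, rfl⟩

theorem cj_cj (g h : G) (L : Subgroup G) : cj g (cj h L) = cj (g * h) L := by
  rw [cj, cj, cj, Subgroup.map_map]
  congr 1
  ext x
  simp [mul_assoc]

theorem cj_one (L : Subgroup G) : cj 1 L = L := by
  ext x
  simp

theorem cj_sup_cj (g : G) (A B : Subgroup G) : cj g (A ⊔ B) = cj g A ⊔ cj g B := Subgroup.map_sup _ _ _

/-- A centraliser of two elements equal gives subgroups commuting. -/
theorem commute_of_components {L K : Subgroup G} (hL : IsComponent L) (hK : IsComponent K) (hne : L ≠ K)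
    {x y : G} (hx : x ∈ L) (hy : y ∈ K) : x * y = y * x :=
  ((Subgroup.commutator_eq_bot_iff_le_centralizer.1 (Components.component_commute hL hK hne)) hx y hy).symm

/-- `l` is the coordinate of `m` at `L`. -/
def Coord (L : Subgroup G) (m l : G) : Prop := l ∈ L ∧ ∀ x ∈ L, (l⁻¹ * m) * x = x * (l⁻¹ * m)

namespace Coord

variable {L : Subgroup G}

theorem of_mem {m : G} (hm : m ∈ L) : Coord L m m :=
  ⟨hm, fun x _ => by rw [inv_mul_cancel, one_mul, mul_one]⟩

theorem of_commute {m : G} (h : ∀ x ∈ L, m * x = x * m) : Coord L m 1 :=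
  ⟨one_mem _, fun x hx => by rw [inv_one, one_mul]; exact h x hx⟩

theorem one : Coord L (1 : G) 1 := of_mem (one_mem _)

theorem mul {m n l k : G} (hm : Coord L m l) (hn : Coord L n k) : Coord L (m * n) (l * k) := by
  refine ⟨mul_mem hm.1 hn.1, fun x hx => ?_⟩
  have e : (l * k)⁻¹ * (m * n) = (l⁻¹ * m) * (k⁻¹ * n) := by
    calc (l * k)⁻¹ * (m * n) = k⁻¹ * (l⁻¹ * m) * n := by group
      _ = (l⁻¹ * m) * k⁻¹ * n := by rw [hm.2 _ (inv_mem hn.1)]
      _ = _ := by group
  rw [e, mul_assoc, hn.2 x hx, ← mul_assoc, hm.2 x hx, mul_assoc]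

theorem inv {m l : G} (hm : Coord L m l) : Coord L m⁻¹ l⁻¹ := by
  refine ⟨inv_mem hm.1, fun x hx => ?_⟩
  have e : (l⁻¹)⁻¹ * m⁻¹ = (l⁻¹ * m)⁻¹ := by
    calc (l⁻¹)⁻¹ * m⁻¹ = (l * (l⁻¹ * m)⁻¹) * l⁻¹ := by group
      _ = (l⁻¹ * m)⁻¹ * l * l⁻¹ := by rw [((Commute.inv_left (hm.2 l hm.1 : Commute (l⁻¹ * m) l))).eq.symm]
      _ = _ := by group
  rw [e]
  exact (Commute.inv_left (hm.2 x hx : Commute (l⁻¹ * m) x)).eq

theorem pow {m l : G} (hm : Coord L m l) : ∀ k : ℕ, Coord L (m ^ k) (l ^ k)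
  | 0 => by simpa using one
  | k + 1 => by rw [pow_succ, pow_succ]; exact (pow hm k).mul hm

theorem conj {m l : G} (hm : Coord L m l) (g : G) : Coord (cj g L) (g * m * g⁻¹) (g * l * g⁻¹) := by
  refine ⟨mem_cj hm.1, ?_⟩
  rintro _ ⟨x, hx, rfl⟩
  show (g * l * g⁻¹)⁻¹ * (g * m * g⁻¹) * (g * x * g⁻¹) = g * x * g⁻¹ * ((g * l * g⁻¹)⁻¹ * (g * m * g⁻¹))
  calc (g * l * g⁻¹)⁻¹ * (g * m * g⁻¹) * (g * x * g⁻¹) = g * (l⁻¹ * m * x) * g⁻¹ := by group
    _ = _ := by rw [hm.2 x hx]; group

theorem unique {m l k : G} (hZ : ∀ y ∈ L, (∀ x ∈ L, y * x = x * y) → y = 1) (hl : Coord L m l)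
    (hk : Coord L m k) : l = k := by
  refine inv_mul_eq_one.1 (hZ _ (mul_mem (inv_mem hl.1) hk.1) fun x hx => ?_)
  have e : l⁻¹ * k = (l⁻¹ * m) * (k⁻¹ * m)⁻¹ := by group
  rw [e]
  exact (Commute.mul_left (hl.2 x hx : Commute (l⁻¹ * m) x)
    (Commute.inv_left (hk.2 x hx : Commute (k⁻¹ * m) x))).eq

end Coord

variable [Finite G]

/-- An abbreviation for the hypotheses. -/
structure LargeData (Q : Subgroup G) (z : G) : Prop where
  ci : CentralInvolution Q z
  cent : Subgroup.centralizer (Q : Set G) = Subgroup.zpowers z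
  norm : Subgroup.centralizer ({z} : Set G) ≤ Subgroup.normalizer (Q : Set G)
  odd : ∀ K : Subgroup G, Odd (Nat.card ↥K) → Q ≤ Subgroup.normalizer (K : Set G) → K = ⊥

theorem largeData_of {Q : Subgroup G} (hQ : IsLargeExtraspecial Q) {z : G}
    (hz : (Subgroup.center ↥Q).map Q.subtype = Subgroup.zpowers z) : LargeData Q z := by
  obtain ⟨hE, h2, h3, h4⟩ := hQ
  obtain ⟨z', h⟩ := exists_centralInvolution hE
  obtain rfl := h.unique hz
  rw [h.center_eq] at h2
  rw [h.centralizer_center] at h3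
  exact ⟨h, h2, h3, h4⟩

namespace LargeData

variable {Q : Subgroup G} {z : G} (D : LargeData Q z)
include D

theorem mem_of_normalized {N : Subgroup G} (hN : N ≠ ⊥) (hQN : Q ≤ Subgroup.normalizer (N : Set G)) : z ∈ N := by
  haveI : Fact (Nat.Prime 2) := ⟨Nat.prime_two⟩
  letI act : MulAction ↥Q ↥N :=
    { smul := fun q n => ⟨q * n * (q : G)⁻¹, (Subgroup.mem_normalizer_iff.1 (hQN q.2) n).1 n.2⟩
      one_smul := fun n => Subtype.ext (show ((1 : ↥Q) : G) * n * ((1 : ↥Q) : G)⁻¹ = n by simp)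
      mul_smul := fun q r n => Subtype.ext (show ((q * r : ↥Q) : G) * n * ((q * r : ↥Q) : G)⁻¹ =
        (q : G) * ((r : G) * n * (r : G)⁻¹) * (q : G)⁻¹ by push_cast; group) }
  have hmod := D.ci.isPGroup.card_modEq_card_fixedPoints ↥N
  have heven : ¬ Odd (Nat.card ↥N) := fun h => hN (D.odd N h hQN)
  have h1 : (1 : ↥N) ∈ MulAction.fixedPoints ↥Q ↥N := fun q =>
    Subtype.ext (show (q : G) * ((1 : ↥N) : G) * (q : G)⁻¹ = ((1 : ↥N) : G) by simp)
  by_contra hzN
  have hall : ∀ n ∈ MulAction.fixedPoints ↥Q ↥N, n = 1 := by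
    intro n hn
    have hc : (n : G) ∈ Subgroup.centralizer (Q : Set G) := fun q hq =>
      mul_inv_eq_iff_eq_mul.1 (congrArg Subtype.val (hn ⟨q, hq⟩))
    rw [D.cent] at hc
    rcases D.ci.mem_zpowers_iff.1 hc with e | e
    · exact Subtype.ext e
    · exact absurd (e ▸ n.2) hzN
  haveI : Subsingleton (MulAction.fixedPoints ↥Q ↥N) :=
    ⟨fun a b => Subtype.ext ((hall a a.2).trans (hall b b.2).symm)⟩
  haveI : Nonempty (MulAction.fixedPoints ↥Q ↥N) := ⟨⟨1, h1⟩⟩
  rw [Nat.card_unique (α := MulAction.fixedPoints ↥Q ↥N)] at hmod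
  exact heven (Nat.odd_iff.2 hmod)

theorem closure_le {N : Subgroup G} [N.Normal] (hN : N ≠ ⊥) : Subgroup.normalClosure ({z} : Set G) ≤ N :=
  Subgroup.normalClosure_le_normal (Set.singleton_subset_iff.2
    (D.mem_of_normalized hN fun q _ => by rw [Subgroup.normalizer_eq_top]; trivial))

theorem mem_closure : z ∈ Subgroup.normalClosure ({z} : Set G) := Subgroup.subset_normalClosure rfl

/-- The central involution is central in every 2-subgroup containing `Q`. -/
theorem le_centralizer_of_two {S : Subgroup G} (hS : IsPGroup 2 ↥S) (hQS : Q ≤ S) :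
    S ≤ Subgroup.centralizer ({z} : Set G) := by
  haveI : Fact (Nat.Prime 2) := ⟨Nat.prime_two⟩
  haveI : Nontrivial ↥S := ⟨⟨⟨z, hQS D.ci.mem⟩, 1, fun e => D.ci.ne_one (congrArg Subtype.val e)⟩⟩
  haveI := hS.center_nontrivial
  obtain ⟨c, hc⟩ := exists_ne (1 : Subgroup.center ↥S)
  have hcc := Subgroup.mem_center_iff.1 c.2
  have hm : ((c : ↥S) : G) ∈ Subgroup.centralizer (Q : Set G) := fun q hq =>
    congrArg Subtype.val (hcc ⟨q, hQS hq⟩)
  rw [D.cent] at hm
  rcases D.ci.mem_zpowers_iff.1 hm with e | e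
  · exact absurd (Subtype.ext (Subtype.ext e)) hc
  · intro x hx
    rw [Subgroup.mem_centralizer_singleton_iff, ← e]
    exact congrArg Subtype.val (hcc ⟨x, hx⟩)

/-- The case of a non-trivial `O₂(G)`. -/
theorem pCore_case (hne : pCore 2 G ≠ ⊥) :
    IsMulCommutative ↥(Subgroup.normalClosure ({z} : Set G)) ∧
      generalizedFittingSubgroup G = pCore 2 G := by
  haveI : Fact (Nat.Prime 2) := ⟨Nat.prime_two⟩
  set N := pCore 2 G with hN
  have hNp : IsPGroup 2 ↥N := Cores.pCore_isPGroup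
  haveI : Nontrivial ↥N := (Subgroup.nontrivial_iff_ne_bot N).2 hne
  haveI := hNp.center_nontrivial
  set Z := (Subgroup.center ↥N).map N.subtype with hZ
  haveI : Z.Normal := Cores.normal_map_subtype_of_characteristic _
  have hZne : Z ≠ ⊥ := by
    rw [hZ, Ne, Subgroup.map_eq_bot_iff_of_injective _ N.subtype_injective]
    exact (Subgroup.nontrivial_iff_ne_bot _).1 inferInstance
  have hMZ := D.closure_le hZne
  refine ⟨⟨⟨fun a b => Subtype.ext ?_⟩⟩, ?_⟩
  · obtain ⟨a', ha', ea⟩ := hMZ a.2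
    obtain ⟨b', hb', eb⟩ := hMZ b.2
    show (a : G) * b = b * a
    rw [← ea, ← eb, ← map_mul, ← map_mul, Subgroup.mem_center_iff.1 hb' a']
  refine Components.genFitting_eq_pCore_of_centralizer_le ?_
  set C0 := Subgroup.centralizer (N : Set G) with hC0
  haveI : N.Normal := inferInstance
  haveI hC0n : C0.Normal := Subgroup.normal_centralizer
  have hzN : z ∈ N := by
    obtain ⟨a, -, ea⟩ := hMZ D.mem_closure
    exact ea ▸ a.2
  have hC0H : C0 ≤ Subgroup.centralizer ({z} : Set G) := fun c hc =>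
    Subgroup.mem_centralizer_singleton_iff.2 (hc z hzN).symm
  have hD : C0 ⊓ Q ≤ N := by
    refine Components.subnormal_le_pCore ?_ (D.ci.isPGroup.to_le inf_le_right)
    refine Subgroup.IsSubnormal.step _ C0 inf_le_left hC0n.isSubnormal ?_
    refine (Subgroup.normal_subgroupOf_iff_le_normalizer inf_le_left).2 fun c hc => ?_
    refine Subgroup.mem_normalizer_iff.2 fun x => ?_
    have n1 := Subgroup.mem_normalizer_iff.1 (Subgroup.le_normalizer hc) x
    have n2 := Subgroup.mem_normalizer_iff.1 (D.norm (hC0H hc)) x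
    exact ⟨fun h => ⟨n1.1 h.1, n2.1 h.2⟩, fun h => ⟨n1.2 h.1, n2.2 h.2⟩⟩
  refine Cores.le_pCore hC0n fun c => ?_
  obtain ⟨j, m, hm, hjm⟩ := Nat.exists_eq_two_pow_mul_odd (orderOf_pos c).ne'
  refine ⟨j, Subtype.ext ?_⟩
  set d := ((c : ↥C0) : G) ^ 2 ^ j with hd
  have hdm : d ^ m = 1 := by
    rw [hd, ← pow_mul, ← SubmonoidClass.coe_pow, ← hjm, pow_orderOf_eq_one]; rfl
  have hd0 : d ∈ C0 := pow_mem c.2 _
  show d = 1
  have hdQ : d ∈ Subgroup.centralizer (Q : Set G) := by
    intro q hq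
    set e := d * q * d⁻¹ * q⁻¹ with he
    have heD : e ∈ C0 ⊓ Q := by
      refine ⟨?_, ?_⟩
      · rw [he, mul_assoc d q, mul_assoc]
        exact Subgroup.mul_mem _ hd0 (hC0n.conj_mem _ (Subgroup.inv_mem _ hd0) q)
      · exact Subgroup.mul_mem _ ((Subgroup.mem_normalizer_iff.1 (D.norm (hC0H hd0)) q).1 hq) (Subgroup.inv_mem _ hq)
    have hde : d * e = e * d := (hd0 e (hD heD)).symm
    have hk : ∀ k : ℕ, d ^ k * q * (d ^ k)⁻¹ = e ^ k * q := by
      intro k
      induction k with
      | zero => simp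
      | succ k ih =>
        calc d ^ (k + 1) * q * (d ^ (k + 1))⁻¹ = d * (d ^ k * q * (d ^ k)⁻¹) * d⁻¹ := by
              rw [pow_succ']; group
          _ = d * e ^ k * d⁻¹ * (d * q * d⁻¹) := by rw [ih]; group
          _ = e ^ k * (e * q) := by
              rw [(Commute.pow_right (show Commute d e from hde) k).eq, mul_inv_cancel_right,
                show d * q * d⁻¹ = e * q by rw [he]; group]
          _ = _ := by rw [pow_succ, mul_assoc (e ^ k) e q]
    have h1 := hk m
    rw [hdm, one_mul, inv_one, mul_one, eq_comm, mul_eq_right] at h1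
    obtain ⟨i, hi⟩ := D.ci.isPGroup ⟨e, heD.2⟩
    have h2 : e ^ 2 ^ i = 1 := congrArg Subtype.val hi
    have he1 : e = 1 := orderOf_eq_one_iff.1 (Nat.eq_one_of_dvd_coprimes
      (Nat.Coprime.pow_left i (Nat.coprime_two_left.2 hm))
      (orderOf_dvd_of_pow_eq_one h2) (orderOf_dvd_of_pow_eq_one h1))
    exact (mul_inv_eq_iff_eq_mul.1 (mul_inv_eq_one.1 (he ▸ he1))).symm
  rw [D.cent] at hdQ
  rcases D.ci.mem_zpowers_iff.1 hdQ with e | e
  · exact e
  · exfalso
    apply D.ci.ne_one
    rw [← e]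
    refine orderOf_eq_one_iff.1 (Nat.eq_one_of_dvd_coprimes (Nat.coprime_two_left.2 hm)
      (orderOf_dvd_of_pow_eq_one ?_) (orderOf_dvd_of_pow_eq_one hdm))
    rw [e, pow_two, D.ci.sq]

section Semisimple

variable (hne : pCore 2 G = ⊥)
include hne

theorem closure_not_comm : ¬ IsMulCommutative ↥(Subgroup.normalClosure ({z} : Set G)) := by
  intro h
  set M := Subgroup.normalClosure ({z} : Set G)
  haveI := h
  have hz : Subgroup.zpowers z ≤ pCore 2 G := by
    refine Components.subnormal_le_pCore ?_ (D.ci.isPGroup.to_le (Subgroup.zpowers_le.2 D.ci.mem))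
    refine Subgroup.IsSubnormal.step _ M (Subgroup.zpowers_le.2 D.mem_closure)
      (Subgroup.normalClosure_normal).isSubnormal ?_
    exact ⟨fun n hn g => by rwa [mul_comm' g n, mul_inv_cancel_right]⟩
  rw [hne] at hz
  exact D.ci.ne_one (Subgroup.mem_bot.1 (hz (Subgroup.mem_zpowers z)))

theorem centralizer_closure : Subgroup.centralizer (Subgroup.normalClosure ({z} : Set G) : Set G) = ⊥ := by
  by_contra h
  haveI : (Subgroup.centralizer (Subgroup.normalClosure ({z} : Set G) : Set G)).Normal :=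
    Subgroup.normal_centralizer
  have hle := D.closure_le h
  exact D.closure_not_comm hne ⟨⟨fun a b => Subtype.ext ((hle b.2) a a.2)⟩⟩

theorem fitting_eq_bot : fittingSubgroup G = ⊥ := by
  by_contra h
  haveI := Components.fitting_normal (G := G)
  have hM := D.closure_le h
  set M := Subgroup.normalClosure ({z} : Set G)
  haveI := Cfsg.Agent.FGS.fitting_isNilpotent (G := G)
  haveI : Group.IsNilpotent ↥M :=
    Subgroup.isNilpotent_of_ker_le_center (Subgroup.inclusion hM)
      (fun x hx => by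
        rw [(Subgroup.inclusion_injective hM) ((MonoidHom.mem_ker.1 hx).trans (map_one _).symm)]
        exact one_mem _)
  haveI : Nontrivial ↥M := ⟨⟨⟨z, D.mem_closure⟩, 1, fun e => D.ci.ne_one (congrArg Subtype.val e)⟩⟩
  set Z := (Subgroup.center ↥M).map M.subtype with hZ
  haveI : Z.Normal := Cores.normal_map_subtype_of_characteristic _
  have hZne : Z ≠ ⊥ := by
    rw [hZ, Ne, Subgroup.map_eq_bot_iff_of_injective _ M.subtype_injective]
    exact Group.IsNilpotent.center_ne_bot _
  have hMZ := D.closure_le hZne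
  refine D.closure_not_comm hne ⟨⟨fun a b => Subtype.ext ?_⟩⟩
  obtain ⟨a', ha', ea⟩ := hMZ a.2
  obtain ⟨b', hb', eb⟩ := hMZ b.2
  show (a : G) * b = b * a
  rw [← ea, ← eb, ← map_mul, ← map_mul, Subgroup.mem_center_iff.1 hb' a']

theorem genFitting_eq_layer : generalizedFittingSubgroup G = layer G := by
  rw [generalizedFittingSubgroup, D.fitting_eq_bot hne, sup_bot_eq]

theorem closure_eq_layer : Subgroup.normalClosure ({z} : Set G) = layer G := by
  haveI := Components.layer_normal (G := G)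
  refine le_antisymm (D.closure_le fun h => D.ci.ne_one ?_) (Components.layer_le_iff.2 fun K hK => ?_)
  · have hc := Components.centralizer_genFitting_le (G := G)
    rw [D.genFitting_eq_layer hne, h] at hc
    exact Subgroup.mem_bot.1 (hc fun x hx => by rw [Subgroup.mem_bot.1 hx, one_mul, mul_one])
  · refine (Components.component_le_or_commute_normal hK inferInstance).resolve_right fun h => ?_
    rw [Subgroup.commutator_eq_bot_iff_le_centralizer, D.centralizer_closure hne] at h
    exact Components.component_ne_bot hK (le_bot_iff.1 h)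

theorem exists_component : ∃ L : Subgroup G, IsComponent L := by
  by_contra h
  push Not at h
  have := D.mem_closure
  rw [D.closure_eq_layer hne, Components.layer_eq_bot_iff.2 h] at this
  exact D.ci.ne_one (Subgroup.mem_bot.1 this)

theorem component_center {L : Subgroup G} (hL : IsComponent L) :
    ∀ y ∈ L, (∀ x ∈ L, y * x = x * y) → y = 1 := by
  intro y hy hc
  have hsn : ((Subgroup.center ↥L).map L.subtype).IsSubnormal :=
    (Subgroup.Normal.isSubnormal inferInstance).trans' hL.1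
  have hc' : IsMulCommutative ↥((Subgroup.center ↥L).map L.subtype) := inferInstance
  have hn : Group.IsNilpotent ↥((Subgroup.center ↥L).map L.subtype) :=
    Components.nilpotent_of_commutator_le_center fun a _ =>
      Subgroup.mem_center_iff.2 fun b => hc'.is_comm.comm b a
  have h := Components.subnormal_nilpotent_le_fitting hsn hn
  rw [D.fitting_eq_bot hne] at h
  refine Subgroup.mem_bot.1 (h ⟨⟨y, hy⟩, ?_, rfl⟩)
  exact Subgroup.mem_center_iff.2 fun x => Subtype.ext (hc x x.2).symm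

theorem component_simple {L : Subgroup G} (hL : IsComponent L) :
    IsSimpleGroup ↥L ∧ ¬ IsMulCommutative ↥L := by
  have hbot : Subgroup.center ↥L = ⊥ := by
    refine (Subgroup.eq_bot_iff_forall _).2 fun y hy => Subtype.ext ?_
    exact D.component_center hne hL y y.2 fun x hx =>
      (congrArg Subtype.val (Subgroup.mem_center_iff.1 hy ⟨x, hx⟩)).symm
  haveI := hL.2.2
  haveI := Components.quasisimple_nontrivial hL.2
  refine ⟨IsSimpleGroup.isSimpleGroup_of_surjective
    ((QuotientGroup.quotientMulEquivOfEq hbot).trans QuotientGroup.quotientBot).toMonoidHom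
    (MulEquiv.surjective _), fun h => ?_⟩
  refine Components.quasisimple_center_ne_top hL.2 (eq_top_iff.2 fun a _ => ?_)
  exact Subgroup.mem_center_iff.2 fun b => h.is_comm.comm b a

/-- No component centralises the involution. -/
theorem component_not_commute {L : Subgroup G} (hL : IsComponent L) (h : ∀ x ∈ L, z * x = x * z) : False := by
  have hLH : L ≤ Subgroup.normalizer (Q : Set G) := fun x hx =>
    D.norm (Subgroup.mem_centralizer_singleton_iff.2 (h x hx).symm)
  haveI : Fact (Nat.Prime 2) := ⟨Nat.prime_two⟩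
  haveI := D.ci.isPGroup.isNilpotent
  have hs : Group.IsSolvable ↥Q := inferInstance
  have hc := Subgroup.commutator_eq_bot_iff_le_centralizer.1 (Components.component_centralizes_solvable hL hs hLH)
  rw [D.cent] at hc
  refine (D.component_simple hne hL).2 ⟨⟨fun a b => Subtype.ext ?_⟩⟩
  obtain ⟨i, hi⟩ := hc a.2
  obtain ⟨k, hk⟩ := hc b.2
  show (a : G) * b = b * a
  rw [← hi, ← hk]
  exact (((Commute.refl z).zpow_zpow i k)).eq

theorem coord_exists {L : Subgroup G} (hL : IsComponent L) {m : G}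
    (hm : m ∈ Subgroup.normalClosure ({z} : Set G)) : ∃ l, Coord L m l := by
  rw [D.closure_eq_layer hne] at hm
  let T : Subgroup G :=
    { carrier := {m | ∃ l, Coord L m l}
      one_mem' := ⟨1, Coord.one⟩
      mul_mem' := fun ⟨l, hl⟩ ⟨k, hk⟩ => ⟨l * k, hl.mul hk⟩
      inv_mem' := fun ⟨l, hl⟩ => ⟨l⁻¹, hl.inv⟩ }
  have hle : layer G ≤ T := by
    refine Components.layer_le_iff.2 fun K hK k hk => ?_
    by_cases e : K = L
    · exact ⟨k, Coord.of_mem (e ▸ hk)⟩
    · exact ⟨1, Coord.of_commute fun x hx => commute_of_components hK hL e hk hx⟩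
  exact hle hm

theorem coord_z {L : Subgroup G} (hL : IsComponent L) :
    ∃ a, Coord L z a ∧ a ≠ 1 ∧ a * a = 1 := by
  obtain ⟨a, ha⟩ := D.coord_exists hne hL D.mem_closure
  refine ⟨a, ha, ?_, ?_⟩
  · rintro rfl
    exact D.component_not_commute hne hL fun x hx => by simpa using ha.2 x hx
  · have h2 := ha.mul ha
    rw [D.ci.sq] at h2
    exact Coord.unique (D.component_center hne hL) h2 Coord.one

theorem transitive {L K : Subgroup G} (hL : IsComponent L) (hK : IsComponent K) :
    ∃ q ∈ Q, cj q L = K := by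
  by_contra h
  push Not at h
  set P := ⨆ q : ↥Q, cj (q : G) L with hP
  have hQP : Q ≤ Subgroup.normalizer (P : Set G) := by
    have key : ∀ r ∈ Q, ∀ x ∈ P, r * x * r⁻¹ ∈ P := by
      intro r hr
      have hle : P ≤ P.comap (MulAut.conj r).toMonoidHom := iSup_le fun q => by
        refine Subgroup.map_le_iff_le_comap.1 ?_
        show cj r (cj (q : G) L) ≤ P
        rw [cj_cj]
        exact le_iSup (fun q : ↥Q => cj (q : G) L) (⟨r, hr⟩ * q)
      exact fun x hx => hle hx
    intro r hr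
    refine Subgroup.mem_normalizer_iff.2 fun x => ⟨key r hr x, fun hx => ?_⟩
    simpa [mul_assoc] using key r⁻¹ (inv_mem hr) _ hx
  have hLP : L ≤ P := by
    refine le_trans (le_of_eq (cj_one L).symm) ?_
    exact le_iSup (fun q : ↥Q => cj (q : G) L) 1
  have hzP : z ∈ P := D.mem_of_normalized
    (fun e => Components.component_ne_bot hL (le_bot_iff.1 (e ▸ hLP))) hQP
  refine D.component_not_commute hne hK fun x hx => ?_
  have hcent : P ≤ Subgroup.centralizer ({x} : Set G) := iSup_le fun q y hy =>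
    Subgroup.mem_centralizer_singleton_iff.2
      (commute_of_components (Components.component_conj _ hL) hK (h q q.2) hy hx)
  exact Subgroup.mem_centralizer_singleton_iff.1 (hcent hzP)

/-- With a component moved by `Q`, the centraliser of `z` in it is a 2-group of small Frattini subgroup. -/
theorem moved_props {L : Subgroup G} (hL : IsComponent L) {q : G} (hq : q ∈ Q) (hqL : cj q L ≠ L)
    {a : G} (ha : Coord L z a) {x : G} (hx : x ∈ L) (hxz : x * z = z * x) :
    q * x * q⁻¹ * x⁻¹ ∈ Q ∧ Coord L (q * x * q⁻¹ * x⁻¹) x⁻¹ ∧ Coord (cj q L) (q * x * q⁻¹ * x⁻¹) (q * x * q⁻¹) := by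
  have hxN := D.norm (Subgroup.mem_centralizer_singleton_iff.2 hxz)
  have hLc := Components.component_conj q hL
  refine ⟨?_, ?_, ?_⟩
  · rw [mul_assoc q x, mul_assoc]
    exact mul_mem hq ((Subgroup.mem_normalizer_iff.1 hxN _).1 (inv_mem hq))
  · have h1 : Coord L (q * x * q⁻¹) 1 := Coord.of_commute fun y hy =>
      commute_of_components hLc hL hqL (mem_cj hx) hy
    simpa using h1.mul (Coord.of_mem (inv_mem hx))
  · have h1 : Coord (cj q L) x⁻¹ 1 := Coord.of_commute fun y hy =>
      commute_of_components hL hLc (Ne.symm hqL) (inv_mem hx) hy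
    simpa using (Coord.of_mem (mem_cj hx)).mul h1

theorem moved_sq {L : Subgroup G} (hL : IsComponent L) {q : G} (hq : q ∈ Q) (hqL : cj q L ≠ L)
    {a : G} (ha : Coord L z a) {x y : G} (hx : x ∈ L) (hxz : x * z = z * x) (hy : y ∈ L) (hyz : y * z = z * y) :
    (x * x = 1 ∨ x * x = a) ∧ (x * y * x⁻¹ * y⁻¹ = 1 ∨ x * y * x⁻¹ * y⁻¹ = a) := by
  have hu : ∀ {m l k : G}, Coord L m l → Coord L m k → l = k := fun h h' =>
    Coord.unique (D.component_center hne hL) h h'
  have hxi : x⁻¹ * z = z * x⁻¹ := (Commute.inv_left (hxz : Commute x z)).eq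
  have hyi : y⁻¹ * z = z * y⁻¹ := (Commute.inv_left (hyz : Commute y z)).eq
  obtain ⟨c1, e1, -⟩ := D.moved_props hne hL hq hqL ha (inv_mem hx) hxi
  obtain ⟨c2, e2, -⟩ := D.moved_props hne hL hq hqL ha (inv_mem hy) hyi
  rw [inv_inv] at e1 e2 c1 c2
  constructor
  · rcases D.ci.sq_mem c1 with e | e
    · exact Or.inl (hu (e ▸ e1.mul e1) Coord.one)
    · exact Or.inr (hu (e ▸ e1.mul e1) ha)
  · rcases D.ci.comm_mem c1 c2 with e | e
    · exact Or.inl (hu (e ▸ ((e1.mul e2).mul e1.inv).mul e2.inv) Coord.one)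
    · exact Or.inr (hu (e ▸ ((e1.mul e2).mul e1.inv).mul e2.inv) ha)

end Semisimple

end LargeData

end Cfsg.Agent.LargeExtra
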